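import Cfsg.Agent.DIM4.Defs2

/-! Project DIM4: the two-colouring of a tame root system (see `notes/DIM4.md`). -/

set_option autoImplicit false

namespace Cfsg.Agent.DIM4

open Matrix

variable {F : Type*} [Field F] {D : Set (M4 F)}

theorem Tame.mono (h : Tame D) {D' : Set (M4 F)} (hD : D' ⊆ D) (hr : RS D') : Tame D' where
  toRS := hr
  eq_of_two h3 x hx y hy := h.eq_of_two h3 x (hD hx) y (hD hy)
  vals x hx y hy := h.vals x (hD hx) y (hD hy)
  three x hx y hy z hz h1 h2 h3 := by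
    rcases h.three x (hD hx) y (hD hy) z (hD hz) h1 h2 h3 with ⟨χ, hχ⟩ | hχ
    · exact Or.inl ⟨χ, fun u hu v hv => hχ u (hD hu) v (hD hv)⟩
    · exact Or.inr fun u hu v hv => hχ u (hD hu) v (hD hv)
  line u s μ h1 h2 h3 := h.line u s μ (hD h1) (hD h2) (hD h3)

namespace Col

theorem four_ne_two (h2 : (2 : F) ≠ 0) : (2 : F) ^ 2 ≠ 2 := fun e => h2 (by linear_combination e)

theorem one_ne_two' : (1 : F) ≠ 2 := fun e => one_ne_zero (α := F) (by linear_combination -e)

theorem not_tau_two : ¬ Tau (2 : F) := fun e => one_ne_zero (α := F) (by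
  rw [Tau] at e; linear_combination -e)

theorem not_tau_one : ¬ Tau (1 : F) := fun e => one_ne_zero (α := F) (by
  rw [Tau] at e; linear_combination -e)

theorem not_tau_zero : ¬ Tau (0 : F) := fun e => one_ne_zero (α := F) (by
  rw [Tau] at e; linear_combination e)

theorem not_tau_three : ¬ Tau (3 : F) := fun e => one_ne_zero (α := F) (by
  rw [Tau] at e; linear_combination e)

theorem one_two (h2 : (2 : F) ≠ 0) {β γ : F} (hβ : β = 1 ∨ β = 4 ∨ Tau β)
    (hγ : γ = 1 ∨ γ = 4 ∨ Tau γ) (e : (β - 2) ^ 2 + (γ - 2) ^ 2 = 4) : False := by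
  have h4 := four_ne h2
  rcases hβ with rfl | rfl | hβ <;> rcases hγ with rfl | rfl | hγ
  · exact h2 (by linear_combination -e)
  · exact one_ne_zero (α := F) (by linear_combination e)
  · have : γ = 0 := by rw [Tau] at hγ; linear_combination hγ - e
    exact not_tau_zero (this ▸ hγ)
  · exact one_ne_zero (α := F) (by linear_combination e)
  · exact h4 (by linear_combination e)
  · have : γ = 3 := by rw [Tau] at hγ; linear_combination hγ - e
    exact not_tau_three (this ▸ hγ)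
  · have : β = 0 := by rw [Tau] at hβ; linear_combination hβ - e
    exact not_tau_zero (this ▸ hβ)
  · have : β = 3 := by rw [Tau] at hβ; linear_combination hβ - e
    exact not_tau_three (this ▸ hβ)
  · have e1 : γ = 2 - β := by rw [Tau] at hβ hγ; linear_combination hβ + hγ - e
    have e2 : β = 1 := by
      rw [Tau] at hβ hγ
      rw [e1] at hγ
      exact mul_left_cancel₀ h2 (by linear_combination hγ - hβ)
    exact not_tau_one (e2 ▸ hβ)

theorem val' (h : Tame D) {x y : M4 F} (hx : x ∈ D) (hy : y ∈ D) (h0 : bW x y ≠ 0)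
    (h2 : bW x y ^ 2 ≠ 2) : bW x y ^ 2 = 1 ∨ bW x y ^ 2 = 4 ∨ Tau (bW x y ^ 2) := by
  rcases h.vals x hx y hy with e | e | e | e | e
  · exact absurd e h0
  · exact Or.inl e
  · exact absurd e h2
  · exact Or.inr (Or.inl e)
  · exact Or.inr (Or.inr e)

theorem ne_two_of (h : RS D) {u v : M4 F} (hv : v ∈ D) (e : u = v ∨ u = -v ∨ bW u v ^ 2 = 1) :
    bW u v ^ 2 ≠ 2 := by
  rcases e with rfl | rfl | e
  · rw [h.bW_self hv]; exact four_ne_two h.two
  · rw [bW_neg_left, h.bW_self hv, neg_sq]; exact four_ne_two h.two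
  · rw [e]; exact one_ne_two'

/-- The triangle lemma. -/
theorem tri (h : Tame D) {x y z : M4 F} (hx : x ∈ D) (hy : y ∈ D) (hz : z ∈ D)
    (h1 : bW x y ≠ 0) (h2 : bW y z ≠ 0) (h3 : bW x z ≠ 0) :
    (bW x z ^ 2 = 2 ↔ ¬ (bW x y ^ 2 = 2 ↔ bW y z ^ 2 = 2)) := by
  have t := h.two
  by_cases hg : gram3 x y z = 0
  · rw [gram3] at hg
    have all : ¬ (bW x y ^ 2 = 2 ∧ bW y z ^ 2 = 2 ∧ bW x z ^ 2 = 2) := fun ⟨a, b, c⟩ => by
      have e : bW x y * bW y z * bW x z = 2 := by linear_combination hg + a + b + c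
      have : (bW x y * bW y z * bW x z) ^ 2 = 8 := by
        rw [mul_pow, mul_pow, a, b, c]; norm_num
      rw [e] at this
      exact four_ne t (by linear_combination -this)
    have one : ∀ a b c : F, 4 + a * b * c - a ^ 2 - b ^ 2 - c ^ 2 = 0 → a ^ 2 = 2 →
        (b ^ 2 = 1 ∨ b ^ 2 = 4 ∨ Tau (b ^ 2)) → (c ^ 2 = 1 ∨ c ^ 2 = 4 ∨ Tau (c ^ 2)) → False :=
      fun a b c e ha hb hc => one_two t hb hc (by
        have e1 : a * b * c = b ^ 2 + c ^ 2 - 2 := by linear_combination e + ha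
        have e2 : (a * b * c) ^ 2 = 2 * b ^ 2 * c ^ 2 := by rw [mul_pow, mul_pow, ha]
        rw [e1] at e2
        linear_combination e2)
    by_cases a : bW x y ^ 2 = 2 <;> by_cases b : bW y z ^ 2 = 2 <;> by_cases c : bW x z ^ 2 = 2
    · exact absurd ⟨a, b, c⟩ all
    · simp [a, b, c]
    · simp [a, b, c]
    · exact (one _ _ _ hg a (val' h hy hz h2 b) (val' h hx hz h3 c)).elim
    · simp [a, b, c]
    · exact (one (bW y z) (bW x y) (bW x z) (by linear_combination hg) b (val' h hx hy h1 a)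
        (val' h hx hz h3 c)).elim
    · exact (one (bW x z) (bW x y) (bW y z) (by linear_combination hg) c (val' h hx hy h1 a)
        (val' h hy hz h2 b)).elim
    · simp [a, b, c]
  · have mx : x ∈ Submodule.span F ({x, y, z} : Set (M4 F)) := Submodule.subset_span (by simp)
    have my : y ∈ Submodule.span F ({x, y, z} : Set (M4 F)) := Submodule.subset_span (by simp)
    have mz : z ∈ Submodule.span F ({x, y, z} : Set (M4 F)) := Submodule.subset_span (by simp)
    rcases h.three x hx y hy z hz h1 h2 hg with ⟨χ, hχ⟩ | hχ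
    · have k : ∀ u ∈ D, ∀ v ∈ D, u ∈ Submodule.span F ({x, y, z} : Set (M4 F)) →
          v ∈ Submodule.span F ({x, y, z} : Set (M4 F)) → bW u v ≠ 0 →
          (bW u v ^ 2 = 2 ↔ χ u ≠ χ v) := fun u hu v hv mu mv h0 => by
        rcases hχ u hu v hv mu mv with ⟨e, e'⟩ | e | ⟨e, e'⟩
        · simp [ne_two_of h.toRS hv e, e']
        · exact absurd e h0
        · simp [e, e']
      rw [k x hx z hz mx mz h3, k x hx y hy mx my h1, k y hy z hz my mz h2]
      cases χ x <;> cases χ y <;> cases χ z <;> simp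
    · have k : ∀ u ∈ D, ∀ v ∈ D, u ∈ Submodule.span F ({x, y, z} : Set (M4 F)) →
          v ∈ Submodule.span F ({x, y, z} : Set (M4 F)) → bW u v ≠ 0 →
          bW u v ^ 2 ≠ 2 := fun u hu v hv mu mv h0 => by
        rcases hχ u hu v hv mu mv with e | e | e | e | e
        · exact ne_two_of h.toRS hv (Or.inl e)
        · exact ne_two_of h.toRS hv (Or.inr (Or.inl e))
        · exact absurd e h0
        · exact ne_two_of h.toRS hv (Or.inr (Or.inr e))
        · exact fun e' => not_tau_two (e' ▸ e)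
      simp [k x hx z hz mx mz h3, k x hx y hy mx my h1, k y hy z hz my mz h2]

/-- Walks in the non-orthogonality graph, with their parity. -/
inductive Wk (D : Set (M4 F)) : M4 F → M4 F → Prop → Prop
  | refl {x : M4 F} {p : Prop} : x ∈ D → ¬ p → Wk D x x p
  | cons {x u v : M4 F} {p q : Prop} : x ∈ D → bW x u ≠ 0 → Wk D u v p →
      (q ↔ ¬ (bW x u ^ 2 = 2 ↔ p)) → Wk D x v q

theorem Wk.left {x y : M4 F} {p : Prop} (w : Wk D x y p) : x ∈ D := by
  cases w <;> assumption

theorem Wk.right {x y : M4 F} {p : Prop} (w : Wk D x y p) : y ∈ D := by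
  induction w <;> assumption

theorem Wk.trans {x y z : M4 F} {p q r : Prop} (w : Wk D x y p) (w' : Wk D y z q)
    (hr : r ↔ ¬ (p ↔ q)) : Wk D x z r := by
  induction w generalizing r with
  | refl hx hp =>
    have : r = q := propext (by tauto)
    exact this ▸ w'
  | @cons x u v p p' hx h0 _ hq ih => exact Wk.cons hx h0 (ih w' Iff.rfl) (by tauto)

theorem Wk.symm {x y : M4 F} {p : Prop} (w : Wk D x y p) : Wk D y x p := by
  induction w with
  | refl hx hp => exact Wk.refl hx hp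
  | @cons x u v p p' hx h0 w hq ih =>
    refine ih.trans (q := bW x u ^ 2 = 2)
      (Wk.cons w.left (bW_comm x u ▸ h0) (Wk.refl (p := False) hx id) ?_) (by tauto)
    rw [bW_comm u x]; tauto

theorem pA {p p' a b c d : Prop} (h1 : p' ↔ ¬ (a ↔ p)) (h2 : b ↔ ¬ (c ↔ a)) (h3 : p ↔ ¬ (b ↔ d)) :
    p' ↔ ¬ (c ↔ d) := by tauto

theorem pB {p p' a b c d : Prop} (h1 : p' ↔ ¬ (a ↔ p)) (h2 : d ↔ ¬ (c ↔ b)) (h3 : p ↔ ¬ (a ↔ b)) :
    p' ↔ ¬ (c ↔ d) := by tauto

theorem Wk.close (h : Tame D) {u v : M4 F} {p : Prop} (w : Wk D u v p) :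
    ∀ z ∈ D, bW z u ≠ 0 → bW z v ≠ 0 → (p ↔ ¬ (bW z u ^ 2 = 2 ↔ bW z v ^ 2 = 2)) := by
  induction w with
  | refl hx hp => intro z _ _ _; tauto
  | @cons x u v p p' hx h0 w hq ih =>
    intro z hz h1 h2
    by_cases a : bW z u = 0
    · by_cases b : bW x v = 0
      · have hz' := h.refl x hx z hz
        have e1 : bW (z - bW z x • x) x = -bW z x := by
          rw [bW_sub_left, bW_smul_left, h.bW_self hx]; ring
        have e2 : bW (z - bW z x • x) u = -(bW z x * bW x u) := by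
          rw [bW_sub_left, bW_smul_left, a, zero_sub]
        have e3 : bW (z - bW z x • x) v = bW z v := by
          rw [bW_sub_left, bW_smul_left, b, mul_zero, sub_zero]
        have n2 : bW (z - bW z x • x) u ≠ 0 := by rw [e2]; exact neg_ne_zero.2 (mul_ne_zero h1 h0)
        have t := tri h hz' hx w.left (by rw [e1]; exact neg_ne_zero.2 h1) h0 n2
        have i := ih _ hz' n2 (by rw [e3]; exact h2)
        rw [e1, neg_sq] at t
        rw [e3] at i
        exact pA hq t i
      · exact pB hq (tri h hz hx w.right h1 b h2) (ih x hx h0 b)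
    · exact pA hq (tri h hz hx w.left h1 h0 a) (ih z hz a h2)

theorem Wk.unique (h : Tame D) {x y : M4 F} {p q : Prop} (w : Wk D x y p) (w' : Wk D x y q) :
    p ↔ q := by
  have n : bW x x ≠ 0 := by rw [h.bW_self w.left]; exact h.two
  have := (w.trans w'.symm Iff.rfl).close h x w.left n n
  tauto

end Col

open Col

theorem Tame.colour (h : Tame D) : ∃ χ : M4 F → Bool, ∀ x ∈ D, ∀ y ∈ D, bW x y ≠ 0 →
    (χ x = χ y ↔ bW x y ^ 2 ≠ 2) := by
  classical
  let base : M4 F → M4 F := fun x => Classical.epsilon fun v => ∃ p, Wk D x v p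
  refine ⟨fun x => decide (Wk D x (base x) True), fun x hx y hy h0 => ?_⟩
  have e : base x = base y := by
    refine congrArg Classical.epsilon (funext fun v => propext ⟨fun ⟨p, w⟩ => ?_, fun ⟨p, w⟩ => ?_⟩)
    · exact ⟨_, Wk.cons hy (bW_comm x y ▸ h0) w Iff.rfl⟩
    · exact ⟨_, Wk.cons hx h0 w Iff.rfl⟩
  obtain ⟨p, w⟩ : ∃ p, Wk D y (base y) p :=
    Classical.epsilon_spec (p := fun v => ∃ p, Wk D y v p) ⟨y, False, Wk.refl hy id⟩
  have w' := Wk.cons hx h0 w Iff.rfl
  have k : ∀ {a b : M4 F} {q : Prop}, Wk D a b q → (Wk D a b True ↔ q) := fun {a b q} u =>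
    ⟨fun u' => (u'.unique h u).1 trivial, fun hq => (propext (iff_true_intro hq) : q = True) ▸ u⟩
  rw [decide_eq_decide, e, k w, k w']
  tauto

theorem Tame.colour_refl (h : Tame D) {χ : M4 F → Bool}
    (hχ : ∀ x ∈ D, ∀ y ∈ D, bW x y ≠ 0 → (χ x = χ y ↔ bW x y ^ 2 ≠ 2)) {x y : M4 F} (hx : x ∈ D)
    (hy : y ∈ D) : χ (-y) = χ y ∧ χ (y - bW y x • x) = χ y ∧ χ (x * y * x) = χ y := by
  have n : ∀ y ∈ D, χ (-y) = χ y := fun y hy => by
    have e : bW (-y) y = -2 := by rw [bW_neg_left, h.bW_self hy]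
    refine (hχ _ (h.neg y hy) y hy (by rw [e]; exact neg_ne_zero.2 h.two)).2 ?_
    rw [e, neg_sq]; exact four_ne_two h.two
  have r : χ (y - bW y x • x) = χ y := by
    by_cases h0 : bW y x = 0
    · rw [h0, zero_smul, sub_zero]
    · have e1 : bW (y - bW y x • x) x = -bW y x := by
        rw [bW_sub_left, bW_smul_left, h.bW_self hx]; ring
      have a := hχ _ (h.refl x hx y hy) x hx (by rw [e1]; exact neg_ne_zero.2 h0)
      rw [e1, neg_sq, ← hχ y hy x hx h0] at a
      revert a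
      cases χ (y - bW y x • x) <;> cases χ y <;> cases χ x <;> simp
  refine ⟨n y hy, r, ?_⟩
  rw [sandwich h.two (h.mem x hx) (h.mem y hy), h.qW hx, one_smul, ← neg_sub,
    n _ (h.refl x hx y hy), r]

theorem Tame.cls (h : Tame D) {χ : M4 F → Bool}
    (hχ : ∀ x ∈ D, ∀ y ∈ D, bW x y ≠ 0 → (χ x = χ y ↔ bW x y ^ 2 ≠ 2)) (t : Bool) :
    Tame {x | x ∈ D ∧ χ x = t} ∧ NoSq2 {x | x ∈ D ∧ χ x = t} := by
  refine ⟨h.mono (fun _ hx => hx.1) ⟨h.two, fun x hx => h.mem x hx.1, fun x hx => h.sq x hx.1,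
    fun x hx => ⟨h.neg x hx.1, (h.colour_refl hχ hx.1 hx.1).1.trans hx.2⟩,
    fun x hx y hy => ⟨h.refl x hx.1 y hy.1, (h.colour_refl hχ hx.1 hy.1).2.1.trans hy.2⟩⟩,
    fun x hx y hy e => ?_⟩
  refine (hχ x hx.1 y hy.1 fun h0 => h.two ?_).1 (hx.2.trans hy.2.symm) e
  rw [← e, h0]; ring

theorem Conn.colour_unique (hr : RS D) (hc : Conn D) {χ ψ : M4 F → Bool}
    (hχ : ∀ x ∈ D, ∀ y ∈ D, bW x y ≠ 0 → (χ x = χ y ↔ ψ x = ψ y)) :
    (∀ x ∈ D, χ x = ψ x) ∨ ∀ x ∈ D, χ x = !ψ x := by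
  by_contra hn
  rw [not_or] at hn
  obtain ⟨h1, h0⟩ := hn
  push Not at h1 h0
  obtain ⟨x1, hx1, e1⟩ := h1
  obtain ⟨x0, hx0, e0⟩ := h0
  have perp : ∀ x ∈ D, χ x ≠ ψ x → ∀ v ∈ Submodule.span F {x | x ∈ D ∧ χ x = ψ x}, bW v x = 0 := by
    intro x hx e v hv
    have : Submodule.span F {x | x ∈ D ∧ χ x = ψ x} ≤ LinearMap.ker (bL F x) := by
      refine Submodule.span_le.2 fun y hy => ?_
      change bW x y = 0
      by_contra h0
      have := hχ x hx y hy.1 h0
      rw [hy.2] at this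
      revert this e
      cases χ x <;> cases ψ x <;> cases ψ y <;> simp
    rw [bW_comm]; exact this hv
  have := hc (Submodule.span F {x | x ∈ D ∧ χ x = ψ x}) (fun x hx v hv => by
    by_cases e : χ x = ψ x
    · exact Submodule.smul_mem _ _ (Submodule.subset_span ⟨hx, e⟩)
    · rw [perp x hx e v hv, zero_smul]; exact zero_mem _)
    ⟨x0, hx0, Submodule.subset_span ⟨hx0, by revert e0; cases χ x0 <;> cases ψ x0 <;> simp⟩⟩
  exact hr.two ((hr.bW_self hx1).symm.trans (perp x1 hx1 e1 x1 (this (hr.mem x1 hx1))))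

theorem Tame.eq_of_four (h : Tame D) (h3 : (3 : F) ≠ 0) {x y : M4 F} (hx : x ∈ D) (hy : y ∈ D)
    (hb : bW x y ^ 2 = 4) : x = y ∨ x = -y := by
  have : (bW x y - 2) * (bW x y + 2) = 0 := by linear_combination hb
  rcases mul_eq_zero.1 this with e | e
  · exact Or.inl (h.eq_of_two h3 x hx y hy (sub_eq_zero.1 e))
  · exact Or.inr (h.eq_of_two h3 x hx _ (h.neg y hy) (by rw [bW_neg_right]; linear_combination -e))

theorem Tame.tau_pair (h : Tame D) (hn : NoSq2 D) {x y z : M4 F} (hx : x ∈ D) (hy : y ∈ D)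
    (hz : z ∈ D) (hxz : bW x z = 0) (h1 : Tau (bW y x ^ 2)) (h2 : Tau (bW y z ^ 2)) :
    bW y x ^ 2 + bW y z ^ 2 = 3 ∧ bW y x ^ 2 ≠ bW y z ^ 2 := by
  have t := h.two
  have key : bW y x ^ 2 ≠ bW y z ^ 2 := by
    intro e
    have hx' := h.refl y hy x hx
    have e1 : bW (x - bW x y • y) z = -(bW y x * bW y z) := by
      rw [bW_sub_left, bW_smul_left, hxz, zero_sub, bW_comm x y]
    have e2 : bW (x - bW x y • y) z ^ 2 = (bW y x ^ 2) ^ 2 := by
      rw [e1, neg_sq, mul_pow, ← e, ← sq]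
    have e3 : bW (x - bW x y • y) x = 2 - bW y x ^ 2 := by
      rw [bW_sub_left, bW_smul_left, h.bW_self hx, bW_comm x y, sq]
    have z0 : bW y x ^ 2 ≠ 0 := fun e0 => not_tau_zero (e0 ▸ h1)
    have h1' := h1
    rw [Tau] at h1'
    rcases h.vals _ hx' z hz with v | v | v | v | v
    · rw [v] at e2
      exact z0 (pow_eq_zero_iff two_ne_zero |>.1 (by rw [← e2]; ring))
    · rw [e2] at v
      rcases sq_eq_one_iff.1 v with a | a
      · exact not_tau_one (a ▸ h1)
      · rw [a] at h1'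
        have h3 : (3 : F) ≠ 0 := fun h3 => t (by linear_combination h1' - h3)
        have y0 : bW y z = 0 := by
          rcases h.eq_of_four h3 hy hx (by linear_combination a - h1') with rfl | rfl
          · exact hxz
          · rw [bW_neg_left, hxz, neg_zero]
        exact z0 (by rw [e, y0]; ring)
    · exact hn _ hx' z hz v
    · have v' := v
      rw [e2] at v'
      have : (bW y x ^ 2 - 2) * (bW y x ^ 2 + 2) = 0 := by linear_combination v'
      rcases mul_eq_zero.1 this with a | a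
      · exact not_tau_two (sub_eq_zero.1 a ▸ h1)
      · have a' : bW y x ^ 2 = -2 := by linear_combination a
        rw [a'] at h1' e3
        have h3 : (3 : F) ≠ 0 := fun h3 => t (by linear_combination h1' - 3 * h3)
        have y0 : bW (x - bW x y • y) x = 0 := by
          rcases h.eq_of_four h3 hx' hz v with b | b <;> rw [b]
          · rw [bW_comm, hxz]
          · rw [bW_neg_left, bW_comm, hxz, neg_zero]
        exact four_ne t (by linear_combination y0 - e3)
    · rw [e2, Tau] at v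
      have a : 3 * bW y x ^ 2 = 1 := mul_left_cancel₀ (four_ne t) (by
        linear_combination v - ((bW y x ^ 2) ^ 2 + 3 * bW y x ^ 2 + 5) * h1')
      exact z0 (pow_eq_zero_iff two_ne_zero |>.1 (by linear_combination h1' + a))
  refine ⟨?_, key⟩
  rw [Tau] at h1 h2
  exact mul_left_cancel₀ (sub_ne_zero.2 key) (by linear_combination h1 - h2)

end Cfsg.Agent.DIM4
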