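import Cfsg.Agent.DIM4.Defs2
import Mathlib.NumberTheory.LegendreSymbol.AddCharacter
import Mathlib.NumberTheory.LegendreSymbol.QuadraticChar.Basic
import Mathlib.LinearAlgebra.Matrix.Charpoly.Eigs
import Mathlib.FieldTheory.IsAlgClosed.Spectrum

/-! Project DIM4: cross characteristic weights (see `notes/DIM4.md`). -/

set_option autoImplicit false

namespace Cfsg.Agent.DIM4

open Matrix

variable {F : Type*} [Field F] {P : Subgroup (G4 F)}

theorem cross_aux {K : Type} [Field K] [Fintype K] (hK : Odd (Fintype.card K))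
    (h3 : 3 < Fintype.card K) (hc : (Fintype.card K : F) ≠ 0) {ψ : AddChar K F} (hψ : ψ.IsPrimitive)
    {X : K → M4 F} (h0 : X 0 = 1) (hX : ∀ a b, X (a + b) = X a * X b) (h1 : X 1 ≠ 1)
    (ha : ∀ a, adj (X a) = X (-a))
    (ht : ∀ l : K, l ≠ 0 → ∃ t t' : M4 F, t' * t = 1 ∧ ∀ a, t * X a = X (l⁻¹ ^ 2 * a) * t) :
    Fintype.card K = 5 ∨ Fintype.card K = 9 := by
  classical
  let e : K → M4 F := fun b => ∑ a, ψ (-(a * b)) • X a
  have e1 : ∀ c b, X c * e b = ψ (c * b) • e b := fun c b => by
    simp only [e, Finset.mul_sum, Finset.smul_sum, mul_smul_comm, smul_smul, ← hX]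
    refine Fintype.sum_equiv (Equiv.addLeft c) _ _ fun a => ?_
    rw [Equiv.coe_addLeft, ← AddChar.map_add_eq_mul]
    congr 2
    ring
  have e2 : ∀ b' b, e b' * e b = (if b - b' = 0 then (Fintype.card K : F) else 0) • e b :=
    fun b' b => by
      have := AddChar.sum_mulShift (b - b') hψ
      push_cast at this
      rw [← this, Finset.sum_smul]
      conv_lhs => enter [1]; simp only [e]
      simp only [Finset.sum_mul, smul_mul_assoc, e1, smul_smul, ← AddChar.map_add_eq_mul]
      refine Finset.sum_congr rfl fun a _ => ?_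
      congr 2
      ring
  have e3 : ∑ b, e b = (Fintype.card K : F) • (1 : M4 F) := by
    simp only [e]
    rw [Finset.sum_comm]
    simp only [← Finset.sum_smul]
    rw [Finset.sum_eq_single 0 (fun a _ h => by
      have := AddChar.sum_mulShift (-a) hψ
      rw [if_neg (neg_ne_zero.2 h), Nat.cast_zero] at this
      simp only [mul_comm a, ← mul_neg, this, zero_smul]) (by simp)]
    simp [h0]
  obtain ⟨b, b0, hb⟩ : ∃ b, b ≠ 0 ∧ e b ≠ 0 := by
    by_contra h
    push Not at h
    rw [Finset.sum_eq_single 0 (fun a _ ha => h a ha) (by simp)] at e3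
    have := e1 1 0
    rw [e3, mul_zero, AddChar.map_zero_eq_one, one_smul, mul_smul_comm, mul_one] at this
    exact h1 (smul_right_injective _ hc this)
  have sq : ∀ l : K, l ≠ 0 → ∀ b, e b ≠ 0 → e (l ^ 2 * b) ≠ 0 := fun l hl b hb h => by
    obtain ⟨t, t', h1, h2⟩ := ht l hl
    have : t * e b = e (l ^ 2 * b) * t := by
      simp only [e, Finset.mul_sum, Finset.sum_mul, mul_smul_comm, smul_mul_assoc, h2]
      refine Fintype.sum_equiv (Equiv.mulLeft₀ (l⁻¹ ^ 2) (by simpa using hl)) _ _ fun a => ?_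
      rw [Equiv.mulLeft₀_apply]
      congr 3
      field_simp
    exact hb (by rw [← one_mul (e b), ← h1, mul_assoc, this, h, zero_mul, mul_zero])
  have ng : ∀ b, e b ≠ 0 → e (-b) ≠ 0 := fun b hb h => by
    have : adj (e (-b)) = e b := by
      have s : ∀ (S : Finset K) (f : K → M4 F), adj (∑ a ∈ S, f a) = ∑ a ∈ S, adj (f a) :=
        fun S f => by simp only [adj, transpose_sum, Finset.mul_sum, Finset.sum_mul, Finset.sum_neg_distrib]
      simp only [e, s, adj_smul, ha]
      exact Fintype.sum_equiv (Equiv.neg K) _ _ fun a => by simp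
    exact hb (by rw [← this, h, adj_zero])
  have card : (Finset.univ.filter fun b => e b ≠ 0).card ≤ 4 := by
    have ex : ∀ b : {b // e b ≠ 0}, ∃ u, e b *ᵥ u ≠ 0 := fun b => by
      by_contra h
      push Not at h
      exact b.2 (Matrix.ext_of_mulVec_single fun i => by rw [h, zero_mulVec])
    choose u hu using ex
    have li : LinearIndependent F fun b : {b // e b ≠ 0} => e b *ᵥ u b := by
      rw [Fintype.linearIndependent_iff]
      intro g hg b
      have := congrArg (e b *ᵥ ·) hg
      simp only [mulVec_sum, mulVec_smul, mulVec_mulVec, e2, smul_mulVec, mulVec_zero] at this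
      rw [Finset.sum_eq_single b (fun c _ h => by
        rw [if_neg (sub_ne_zero.2 fun k => h (Subtype.ext k)), zero_smul, smul_zero]) (by simp),
        sub_self, if_pos rfl] at this
      simpa [hc, hu b] using this
    have := li.fintype_card_le_finrank
    rw [Fintype.card_subtype] at this
    simpa using this
  let T := (Finset.univ.erase (0 : K)).image fun l => l ^ 2 * b
  have t1 : T ⊆ Finset.univ.filter fun b => e b ≠ 0 := fun c hc => by
    obtain ⟨l, hl, rfl⟩ := Finset.mem_image.1 hc
    simpa using sq l (Finset.ne_of_mem_erase hl) b hb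
  have t2 : Fintype.card K - 1 ≤ 2 * T.card := by
    have := Finset.card_le_mul_card_image (f := fun l : K => l ^ 2 * b) (Finset.univ.erase 0) 2
      fun c hc => by
        obtain ⟨l, -, rfl⟩ := Finset.mem_image.1 hc
        refine (Finset.card_le_card (t := {l, -l}) fun m hm => ?_).trans Finset.card_le_two
        simpa [b0, sq_eq_sq_iff_eq_or_eq_neg] using (Finset.mem_filter.1 hm).2
    rwa [Finset.card_erase_of_mem (Finset.mem_univ _), Finset.card_univ] at this
  have t3 := Finset.card_le_card t1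
  have n7 : Fintype.card K ≠ 7 := fun h7 => by
    have d : Disjoint T (T.image Neg.neg) := Finset.disjoint_left.2 fun c h1 h2 => by
      obtain ⟨c', h3, rfl⟩ := Finset.mem_image.1 h2
      obtain ⟨l, hl, rfl⟩ := Finset.mem_image.1 h3
      obtain ⟨m, -, hm⟩ := Finset.mem_image.1 h1
      have l0 := Finset.ne_of_mem_erase hl
      refine FiniteField.isSquare_neg_one_iff.1 ⟨m / l, ?_⟩ (by rw [h7])
      field_simp
      exact mul_right_cancel₀ b0 (by linear_combination -hm)
    have := Finset.card_le_card (s := T ∪ T.image Neg.neg) (Finset.union_subset t1 fun c hc => by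
      obtain ⟨c', h3, rfl⟩ := Finset.mem_image.1 hc
      simpa using ng c' (by simpa using t1 h3))
    rw [Finset.card_union_of_disjoint d, Finset.card_image_of_injective _ neg_injective] at this
    omega
  obtain ⟨m, hm⟩ := hK
  omega

theorem SL2Data.cross (hP : P ≤ Cfsg.spGL 2 F) {K : Type} [Field K] [Fintype K]
    (hK : Odd (Fintype.card K)) (h3 : 3 < Fintype.card K) (hc : (Fintype.card K : F) ≠ 0)
    (d : SL2Data P K) : Fintype.card K = 5 ∨ Fintype.card K = 9 := by
  have hr : ringChar F ≠ ringChar K := fun h => by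
    obtain ⟨n, -, hn⟩ := FiniteField.card K (ringChar K)
    rw [hn, ← h, Nat.cast_pow, ringChar.Nat.cast_ringChar, zero_pow n.ne_zero] at hc
    exact hc rfl
  let c := AddChar.FiniteField.primitiveChar K F hr
  let m : M4 F →+* M4 (CyclotomicField c.n F) := (algebraMap F _).mapMatrix
  have inj : Function.Injective m := Matrix.map_injective (algebraMap F _).injective
  have X0 : d.X 0 = 1 := left_eq_mul.1 (show d.X 0 = d.X 0 * d.X 0 by rw [← d.X_add, add_zero])
  have mj : m (J (Fin 2) F) = J (Fin 2) _ := Matrix.map_J _ (algebraMap F _)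
  refine cross_aux hK h3 (fun h => hc ((algebraMap F (CyclotomicField c.n F)).injective
    (by rwa [map_natCast, map_zero]))) c.prim
    (X := fun a => m (d.X a)) (by simp [X0]) (fun a b => by simp [d.X_add]) (fun h => d.X_ne 1
      one_ne_zero (Units.ext (inj (by simpa using h)))) (fun a => ?_) fun l hl => ?_
  · have : d.X (-a) = (d.X a)⁻¹ := eq_inv_of_mul_eq_one_left (by rw [← d.X_add, neg_add_cancel, X0])
    rw [this, ← adj_coe (hP (d.X_mem a)), adj, adj, map_neg, map_mul, map_mul, mj]
    rfl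
  · obtain ⟨w, hw⟩ : ∃ w : K → G4 F, ∀ l, w l = d.X l * d.Y (-l⁻¹) * d.X l := ⟨_, fun _ => rfl⟩
    refine ⟨m ((w 1)⁻¹ * w l : G4 F), m ((w 1)⁻¹ * w l)⁻¹.val, by
      rw [← map_mul, Units.inv_mul, map_one], fun a => ?_⟩
    have k1 := d.conjX l a hl
    have k2 := d.conjX 1 (l⁻¹ ^ 2 * a) one_ne_zero
    rw [← hw] at k1 k2
    rw [inv_one, one_pow, one_mul, eq_comm, ← eq_mul_inv_iff_mul_eq] at k2
    rw [← map_mul, ← map_mul, ← Units.val_mul, ← Units.val_mul, mul_assoc, k1, k2]
    congr 2
    group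

theorem seven_false {ι : Type*} [Fintype ι] [DecidableEq ι] (hι : Fintype.card ι ≤ 5)
    (h7 : (7 : F) ≠ 0) {x y : GL ι F} (hx : x ^ 7 = 1) (h1 : x ≠ 1) (hy : y * x * y⁻¹ = x ^ 2)
    (hi : ((x⁻¹ : GL ι F) : Matrix ι ι F).charpoly = (x : Matrix ι ι F).charpoly) : False := by
  classical
  let E := AlgebraicClosure F
  let m : Matrix ι ι F →+* Matrix ι ι E := (algebraMap F E).mapMatrix
  have inj : Function.Injective m := Matrix.map_injective (algebraMap F E).injective
  have hn : Nonempty ι := by
    by_contra h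
    rw [not_nonempty_iff] at h
    exact h1 (Subsingleton.elim _ _)
  let a : GL ι E := Units.map (m : Matrix ι ι F →* Matrix ι ι E) x
  have a7 : (a : Matrix ι ι E) ^ 7 = 1 := by rw [← Units.val_pow_eq_pow_val, ← map_pow, hx]; simp
  have s2 : ∀ z ∈ spectrum E (a : Matrix ι ι E), z ^ 2 ∈ spectrum E (a : Matrix ι ι E) :=
    fun z hz => by
      have := spectrum.pow_mem_pow _ 2 hz
      rwa [← Units.val_pow_eq_pow_val, ← map_pow, ← hy, map_mul, map_mul, map_inv, Units.val_mul,
        Units.val_mul, spectrum.units_conjugate] at this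
  have s7 : ∀ z ∈ spectrum E (a : Matrix ι ι E), z ^ 7 = 1 := fun z hz => by
    have := spectrum.pow_mem_pow _ 7 hz
    rwa [a7, spectrum.one_eq] at this
  have s6 : ∀ z ∈ spectrum E (a : Matrix ι ι E), z ^ 6 ∈ spectrum E (a : Matrix ι ι E) :=
    fun z hz => by
      have z0 : z ≠ 0 := by rintro rfl; simpa using s7 0 hz
      have := (spectrum.inv_mem_iff (r := (Units.mk0 z z0)⁻¹) (a := a⁻¹)).2 (by simpa using hz)
      rw [mem_spectrum_iff_isRoot_charpoly, ← map_inv] at this
      rw [mem_spectrum_iff_isRoot_charpoly, show z ^ 6 = z⁻¹ from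
        eq_inv_of_mul_eq_one_left (by rw [← pow_succ, s7 z hz])]
      change ((m x).charpoly).IsRoot _
      change ((m (x⁻¹ : GL ι F)).charpoly).IsRoot _ at this
      simp only [m, RingHom.mapMatrix_apply, charpoly_map, hi] at this ⊢
      simpa using this
  obtain ⟨z, hz, z1⟩ : ∃ z ∈ spectrum E (a : Matrix ι ι E), z ≠ 1 := by
    have k : (0 : E) ∈ spectrum E (Polynomial.aeval (a : Matrix ι ι E)
        (∑ i ∈ Finset.range 7, Polynomial.X ^ i : Polynomial E)) := by
      rw [spectrum.zero_mem_iff]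
      intro hu
      have := mul_geom_sum (a : Matrix ι ι E) 7
      rw [a7, sub_self] at this
      simp only [map_sum, map_pow, Polynomial.aeval_X] at hu
      exact h1 (Units.ext (inj (by simpa [a, sub_eq_zero] using hu.mul_left_eq_zero.1 this)))
    rw [spectrum.map_polynomial_aeval_of_nonempty _ _ (spectrum.nonempty_of_isAlgClosed_of_finiteDimensional
      E _)] at k
    obtain ⟨z, hz, e⟩ := k
    refine ⟨z, hz, fun h => h7 ((algebraMap F E).injective ?_)⟩
    rw [map_ofNat, map_zero]
    simpa [h, Polynomial.eval_finsetSum] using e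
  have o : orderOf z = 7 := by
    have : Fact (Nat.Prime 7) := ⟨by norm_num⟩
    exact orderOf_eq_prime (s7 z hz) z1
  have md : ∀ i, z ^ i = z ^ (i % 7) := fun i => by rw [← o, pow_mod_orderOf]
  have all : ∀ i ∈ Finset.Ico 1 7, z ^ i ∈ spectrum E (a : Matrix ι ι E) := by
    have m2 := s2 z hz
    have m4 := s2 _ m2
    have m5 := s6 _ m2
    have m3 := s6 _ m4
    rw [← pow_mul] at m4 m5 m3
    rw [← pow_mul, md] at m3
    rw [md] at m5
    intro i hi
    obtain ⟨h1, h2⟩ := Finset.mem_Ico.1 hi
    interval_cases i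
    exacts [by rwa [pow_one], m2, m3, m4, m5, s6 z hz]
  have c1 : ((Finset.Ico 1 7).image (z ^ ·)).card = 6 := by
    rw [Finset.card_image_of_injOn fun i hi j hj h => pow_injOn_Iio_orderOf
      (by rw [o]; exact (Finset.mem_Ico.1 hi).2) (by rw [o]; exact (Finset.mem_Ico.1 hj).2) h]
    rfl
  have c2 := Polynomial.card_le_degree_of_subset_roots (p := (a : Matrix ι ι E).charpoly)
    (Z := (Finset.Ico 1 7).image (z ^ ·)) fun w hw => by
      obtain ⟨i, hi, rfl⟩ := Finset.mem_image.1 (Finset.mem_def.2 hw)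
      exact (Polynomial.mem_roots (charpoly_monic _).ne_zero).2
        (mem_spectrum_iff_isRoot_charpoly.1 (all i hi))
  rw [c1, charpoly_natDegree_eq_dim] at c2
  omega

theorem charpoly_inv_sp {g : G4 F} (hg : g ∈ Cfsg.spGL 2 F) :
    ((g⁻¹ : G4 F) : M4 F).charpoly = (g : M4 F).charpoly := by
  rw [← adj_coe hg, adj, ← neg_mul, charpoly_mul_comm, ← neg_mul, ← mul_assoc, mul_neg, J_mul_J,
    neg_neg, one_mul, charpoly_transpose]

end Cfsg.Agent.DIM4
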