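import Cfsg.Agent.DIM4.EvDefs
import Cfsg.Agent.H27.FinField

/-! Project DIM4, even `q`: linear algebra of the four-dimensional symplectic space. -/

set_option autoImplicit false

namespace Cfsg.Agent.DIM4

open Matrix H27

variable {F : Type*} [Field F] {G : Type*} [Group G] {ρ : G →* SpM F}

theorem ff_comm (h2 : (2 : F) = 0) (u v : I4 → F) : ff u v = ff v u := by
  linear_combination sympForm_neg_comm u v - ff v u * h2

theorem five_vec (a b c d x : I4 → F) :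
    (ff a b * ff c d - ff a c * ff b d + ff a d * ff b c) • x =
      -(ff b c * ff d x - ff b d * ff c x + ff b x * ff c d) • a +
      (ff a c * ff d x - ff a d * ff c x + ff a x * ff c d) • b -
      (ff a b * ff d x - ff a d * ff b x + ff a x * ff b d) • c +
      (ff a b * ff c x - ff a c * ff b x + ff a x * ff b c) • d := by
  ext (i|i) <;> fin_cases i <;> simp [ff, H27.sympForm_eq, Fin.sum_univ_two] <;> ring

theorem mem_point_of_perp {p x : I4 → F} (hp : p ≠ 0) (h : ∀ y, ff p y = 0 → ff x y = 0) :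
    ∃ c : F, x = c • p := by
  obtain ⟨y, hy⟩ := not_forall.1 (mt eq_zero_of_sympForm_left hp)
  refine ⟨ff x y / ff p y, sub_eq_zero.1 (eq_zero_of_sympForm_left fun z => ?_)⟩
  have := h (z - (ff p z / ff p y) • y) (by
    rw [ff, sympForm_sub_right, sympForm_smul_right, div_mul_cancel₀ _ hy, sub_self])
  rw [ff, sympForm_sub_right, sympForm_smul_right] at this
  rw [sympForm_sub_left, sympForm_smul_left]
  linear_combination this

theorem mem_line_of_perp {a b x : I4 → F} (ha : a ≠ 0) (hb : ∀ c : F, b ≠ c • a) (hab : ff a b = 0)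
    (h1 : ff a x = 0) (h2 : ff b x = 0) : ∃ c d : F, x = c • a + d • b := by
  obtain ⟨d, h3, h4⟩ : ∃ d, ff a d = 0 ∧ ff b d ≠ 0 := by
    by_contra! e
    obtain ⟨c, hc⟩ := mem_point_of_perp ha e
    exact hb c hc
  obtain ⟨c, hc⟩ := not_forall.1 (mt eq_zero_of_sympForm_left ha)
  have := five_vec a b c d x
  simp only [hab, h1, h2, h3, zero_mul, mul_zero, zero_sub, add_zero, sub_zero, zero_smul,
    neg_zero, sub_self] at this
  exact ⟨_, _, ((inv_smul_smul₀ (neg_ne_zero.2 (mul_ne_zero hc h4)) x).symm.trans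
    (congrArg _ this)).trans (by rw [smul_add, smul_smul, smul_smul])⟩

theorem trace_inv_spM (g : SpM F) : (g⁻¹).1.trace = g.1.trace := by
  rw [SymplecticGroup.coe_inv, trace_mul_comm, ← Matrix.mul_assoc, Matrix.mul_neg, J_squared, neg_neg,
    Matrix.one_mul, trace_transpose]

theorem nil_of_two_pow (h2 : (2 : F) = 0) {g : SpM F} {n : ℕ} (h : g ^ 2 ^ n = 1) :
    (g.1 - 1) ^ 2 ^ n = 0 := by
  haveI : CharP F 2 := CharTwo.of_one_ne_zero_of_two_eq_zero one_ne_zero h2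
  rw [sub_pow_char_pow_of_commute 2 n (Commute.one_right _), one_pow, sub_eq_zero]
  exact congrArg Subtype.val h

theorem trace_of_two_pow (h2 : (2 : F) = 0) {g : SpM F} {n : ℕ} (h : g ^ 2 ^ n = 1) :
    g.1.trace = 0 := by
  have := (isNilpotent_trace_of_isNilpotent ⟨_, nil_of_two_pow h2 h⟩).eq_zero
  rw [trace_sub, trace_one] at this
  simp at this
  linear_combination this + 2 * h2

theorem exists_fix_of_two_pow (h2 : (2 : F) = 0) {g : SpM F} {n : ℕ} (h : g ^ 2 ^ n = 1) :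
    ∃ v, v ≠ 0 ∧ g.1 *ᵥ v = v := by
  obtain ⟨v, h1, h3⟩ := exists_mulVec_eq_zero_iff.2 (show (g.1 - 1).det = 0 from
    pow_eq_zero_iff (n := 2 ^ n) (by positivity) |>.1 (by
      rw [← det_pow, nil_of_two_pow h2 h, det_zero]))
  exact ⟨v, h1, by rwa [sub_mulVec, one_mulVec, sub_eq_zero] at h3⟩

theorem trace_sq_two (h2 : (2 : F) = 0) (A : M4 F) : (A * A).trace = A.trace ^ 2 := by
  haveI : CharP F 2 := CharTwo.of_one_ne_zero_of_two_eq_zero one_ne_zero h2
  simp only [trace, diag, mul_apply, Fintype.sum_sum_type, Fin.sum_univ_two]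
  grind

theorem e2_mul_comm (A B : M4 F) : e2 (A * B) = e2 (B * A) := by
  simp only [e2, mul_apply, Fintype.sum_sum_type, Fin.sum_univ_two]
  ring

theorem spT_inj (h2 : (2 : F) = 0) {u w : I4 → F} (h : H27.spT u 1 = H27.spT w (1 : F)) :
    u = w := by
  refine sub_eq_zero.1 (eq_zero_of_sympForm_right fun x => pow_eq_zero_iff two_ne_zero |>.1 ?_)
  have := congrArg (fun g : SpM F => ff x (g.1 *ᵥ x)) h
  simp only [spT_mulVec, ff, sympForm_add_right, sympForm_smul_right] at this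
  rw [sympForm_sub_right]
  linear_combination this + (ff x w ^ 2 - ff x u * ff x w) * h2

theorem ff_sub_one (g : SpM F) (x y : I4 → F) :
    ff ((g.1 - 1) *ᵥ x) y = ff x (((g⁻¹).1 - 1) *ᵥ y) := by
  rw [sub_mulVec, sub_mulVec, one_mulVec, one_mulVec, ff, ff, sympForm_sub_left, sympForm_sub_right,
    ← sp_sympForm g x ((g⁻¹).1 *ᵥ y), sp_mulVec_inv_mulVec]

theorem invol_adj {t : SpM F} (ht : t * t = 1) (x y : I4 → F) :
    ff ((t.1 - 1) *ᵥ x) y = ff x ((t.1 - 1) *ᵥ y) := by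
  rw [ff_sub_one, inv_eq_of_mul_eq_one_right ht]

theorem invol_nil (h2 : (2 : F) = 0) {t : SpM F} (ht : t * t = 1) (x : I4 → F) :
    (t.1 - 1) *ᵥ ((t.1 - 1) *ᵥ x) = 0 := by
  rw [mulVec_mulVec, ← sq, show (t.1 - 1) ^ 2 = 0 from nil_of_two_pow (n := 1) h2 ((sq t).trans ht),
    zero_mulVec]

theorem invol_cases [Finite F] (h2 : (2 : F) = 0) {t : SpM F} (ht : t * t = 1) (h1 : t ≠ 1) :
    (∃ w, w ≠ 0 ∧ t = H27.spT w 1) ∨ (∀ v, ff v ((t.1 - 1) *ᵥ v) = 0) ∨ ∃ p, C2At t p := by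
  have h3 := invol_adj ht
  have h4 := invol_nil h2 ht
  have inj : ∀ a b : F, a ^ 2 = b ^ 2 → a = b := fun a b e => sub_eq_zero.1
    (pow_eq_zero_iff two_ne_zero |>.1 (by linear_combination e + (b ^ 2 - a * b) * h2))
  choose l hl using fun v => exists_sq_eq_of_two_eq_zero h2 (ff v ((t.1 - 1) *ᵥ v))
  obtain ⟨p, hp⟩ := exists_sympForm_rep (F := F) (m := 2) ⟨⟨l, fun x y => inj _ _ (by
    simp only [add_sq, ← hl, h2, mulVec_add, ff, sympForm_add_left, sympForm_add_right]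
    linear_combination ff_comm h2 y ((t.1 - 1) *ᵥ x) + h3 x y + ff x ((t.1 - 1) *ᵥ y) * h2)⟩,
    fun c x => inj _ _ (by
      simp only [RingHom.id_apply, smul_eq_mul, mul_pow, ← hl, mulVec_smul, ff, sympForm_smul_left,
        sympForm_smul_right]; ring)⟩
  replace hp : ∀ v, ff v ((t.1 - 1) *ᵥ v) = ff v p ^ 2 := fun v => by
    rw [hl, ff_comm h2, show ff p v = l v from hp v]
  by_cases h0 : p = 0
  · exact .inr (.inl fun v => by rw [hp, h0, ff, sympForm_zero_right]; simp)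
  have h5 : (t.1 - 1) *ᵥ p = 0 := eq_zero_of_sympForm_right fun v => (h3 v p).symm.trans
    (pow_eq_zero_iff two_ne_zero |>.1 (by rw [← hp, h4, ff, sympForm_zero_right]))
  have h6 : ∀ x y, (t.1 - 1) *ᵥ y = 0 → ff ((t.1 - 1) *ᵥ x) y = 0 := fun x y e => by
    rw [h3, e, ff, sympForm_zero_right]
  obtain ⟨v, hv⟩ := not_forall.1 (mt eq_zero_of_sympForm_right h0)
  have h7 : (t.1 - 1) *ᵥ v ≠ 0 := fun e => pow_ne_zero 2 hv (by rw [← hp, e, ff, sympForm_zero_right])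
  by_cases h8 : ∀ y, ∃ c : F, (t.1 - 1) *ᵥ y = c • (t.1 - 1) *ᵥ v
  · refine .inl ⟨p, h0, sp_ext fun x => ?_⟩
    have h9 : ∀ y, ff v p ^ 2 • (t.1 - 1) *ᵥ y = ff y ((t.1 - 1) *ᵥ v) • (t.1 - 1) *ᵥ v := fun y => by
      obtain ⟨c, hc⟩ := h8 y
      rw [ff_comm h2 y, h3, hc, ff, ff, sympForm_smul_right, smul_smul, ← hp, mul_comm]
    have h10 : ∀ y, ff y ((t.1 - 1) *ᵥ v) = ff v p * ff y p := fun y => inj _ _ (by
      have := congrArg (ff y) (h9 y)
      simp only [ff, sympForm_smul_right] at this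
      rw [mul_pow, ← hp y, this, sq])
    have h11 : (t.1 - 1) *ᵥ v = ff v p • p := sub_eq_zero.1 (eq_zero_of_sympForm_right fun y => by
      rw [sympForm_sub_right, sympForm_smul_right]; exact sub_eq_zero.2 (h10 y))
    have := h9 x
    rw [h10, h11, smul_smul, show ff v p * ff x p * ff v p = ff v p ^ 2 * ff x p by ring, mul_smul,
      smul_right_inj (pow_ne_zero 2 hv), sub_mulVec, one_mulVec, sub_eq_iff_eq_add'] at this
    rw [spT_mulVec, one_mul, this]
  push Not at h8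
  obtain ⟨y, hy⟩ := h8
  refine .inr (.inr ⟨p, ht, h0, hp, fun z hz => ?_, fun x hx => by_contra fun e => ?_⟩)
  · obtain ⟨c, d, e⟩ := mem_line_of_perp h7 hy (h6 _ _ (h4 y)) (h6 _ _ hz) (h6 _ _ hz)
    exact ⟨c • v + d • y, by rw [e, mulVec_add, mulVec_smul, mulVec_smul]⟩
  · obtain ⟨c, d, e'⟩ := mem_line_of_perp h0 (fun c e' => e ⟨c, e'⟩)
      ((ff_comm h2 _ _).trans (h6 _ _ h5)) ((ff_comm h2 _ _).trans hx)
      ((ff_comm h2 _ _).trans ((hp x).trans (by rw [hx]; simp)))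
    exact e ⟨0, by rw [e', mulVec_add, mulVec_smul, mulVec_smul, h5, h4]; simp⟩

theorem C2At.flag (h2 : (2 : F) = 0) {t g : SpM F} {p : I4 → F} (h : C2At t p)
    (hg : g * t = t * g) : g.1 *ᵥ p = p ∧ (∀ v, ff ((g.1 - 1) *ᵥ v) p = 0) ∧
      (∀ v, ff v p = 0 → (t.1 - 1) *ᵥ ((g.1 - 1) *ᵥ v) = 0) ∧
      ∀ v, (t.1 - 1) *ᵥ v = 0 → ∃ k : F, (g.1 - 1) *ᵥ v = k • p := by
  have key : ∀ g : SpM F, g * t = t * g → (g.1 - 1) *ᵥ p = 0 ∧ (∀ v, ff ((g.1 - 1) *ᵥ v) p = 0) ∧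
      ∀ v, ff v p = 0 → (t.1 - 1) *ᵥ ((g.1 - 1) *ᵥ v) = 0 := fun g hg => by
    have h1 : (t.1 - 1) * g.1 = g.1 * (t.1 - 1) := by
      rw [Matrix.sub_mul, Matrix.mul_sub, Matrix.one_mul, Matrix.mul_one]
      exact congrArg (·.1 - g.1) hg.symm
    have h3 : ∀ v, ff ((g.1 - 1) *ᵥ v) p = 0 := fun v => pow_eq_zero_iff two_ne_zero |>.1 (by
      have := h.form (g.1 *ᵥ v)
      rw [mulVec_mulVec, h1, ← mulVec_mulVec, ff, sp_sympForm, ← ff, h.form] at this
      rw [sub_mulVec, one_mulVec, ff, sympForm_sub_left]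
      linear_combination -this + (ff v p ^ 2 - ff (g.1 *ᵥ v) p * ff v p) * h2)
    have h4 : (g.1 - 1) *ᵥ p = 0 := eq_zero_of_sympForm_right fun v => by
      have := h3 ((g⁻¹).1 *ᵥ v)
      rw [sub_mulVec, one_mulVec, sp_mulVec_inv_mulVec, ff, sympForm_sub_left,
        ← sp_sympForm g ((g⁻¹).1 *ᵥ v), sp_mulVec_inv_mulVec] at this
      rw [sub_mulVec, one_mulVec, sympForm_sub_right]
      linear_combination -this
    refine ⟨h4, h3, fun v hv => ?_⟩
    obtain ⟨k, hk⟩ := h.perp v hv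
    rw [mulVec_mulVec, Matrix.mul_sub, h1, Matrix.mul_one, sub_mulVec, ← mulVec_mulVec, hk,
      mulVec_smul, ← smul_sub, show g.1 *ᵥ p - p = 0 by rwa [sub_mulVec, one_mulVec] at h4, smul_zero]
  obtain ⟨h1, h3, h4⟩ := key g hg
  refine ⟨by rwa [sub_mulVec, one_mulVec, sub_eq_zero] at h1, h3, h4,
    fun v hv => mem_point_of_perp h.ne fun x hx => ?_⟩
  obtain ⟨y, hy⟩ := h.ker _ ((key g⁻¹ (Commute.inv_left hg)).2.2 x ((ff_comm h2 _ _).trans hx))
  rw [ff_sub_one, hy, ← invol_adj h.sq, hv, ff, sympForm_zero_left]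

theorem C2At.pow_four (h2 : (2 : F) = 0) {t g : SpM F} {p : I4 → F} (h : C2At t p)
    (hg : g * t = t * g) : g ^ 4 = 1 := by
  haveI : CharP F 2 := CharTwo.of_one_ne_zero_of_two_eq_zero one_ne_zero h2
  obtain ⟨h1, h3, h4, h5⟩ := h.flag h2 hg
  have : (g.1 - 1) ^ 2 ^ 2 = 0 := ext_of_mulVec_single fun i => by
    obtain ⟨k, hk⟩ := h5 _ (h4 _ (h3 (Pi.single i 1)))
    rw [show (g.1 - 1) ^ 2 ^ 2 = (g.1 - 1) * ((g.1 - 1) * ((g.1 - 1) * (g.1 - 1))) by
      simp only [pow_succ, pow_zero, one_mul, mul_assoc, Nat.reduceMul]]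
    simp only [← mulVec_mulVec]
    rw [hk, mulVec_smul, sub_mulVec, h1, one_mulVec, sub_self, smul_zero, zero_mulVec]
  rw [sub_pow_char_pow_of_commute 2 2 (Commute.one_right _), one_pow, sub_eq_zero] at this
  exact Subtype.ext this

theorem Ev.inj (h : Ev ρ) : Function.Injective ρ := by
  haveI := h.simple
  refine (MonoidHom.ker_eq_bot_iff ρ).1 (ρ.normal_ker.eq_bot_or_eq_top.resolve_right fun e => ?_)
  exact one_ne_zero (congrFun (h.nofix 1 fun g => by
    rw [show ρ g = 1 from e.ge (Subgroup.mem_top g)]; exact one_mulVec _) (.inl 0))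

theorem Ev.perfect (h : Ev ρ) : commutator G = ⊤ := by
  haveI := h.simple
  refine (inferInstance : (commutator G).Normal).eq_bot_or_eq_top.resolve_left fun e => ?_
  obtain ⟨a, b, hab⟩ := h.nonab
  exact hab (commutatorElement_eq_one_iff_mul_comm.1 (e.le (Subgroup.commutator_mem_commutator
    (Subgroup.mem_top a) (Subgroup.mem_top b))))

end Cfsg.Agent.DIM4
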