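import Cfsg.Agent.DIM4.Defs

/-! Project DIM4, even `q`: vocabulary (see `notes/DIM4.md`, last part). -/

set_option autoImplicit false

namespace Cfsg.Agent.DIM4

open Matrix

/-- The symplectic group of `4 × 4` matrices. -/
abbrev SpM (F : Type*) [Field F] := Matrix.symplecticGroup (Fin 2) F

variable {F : Type*} [Field F] {G : Type*} [Group G]

/-- The alternating form. -/
abbrev ff (u v : I4 → F) : F := Cfsg.sympForm 2 F u v

/-- The sum of the principal `2 × 2` minors. -/
def e2 (A : M4 F) : F :=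
  let m := fun i j : I4 => A i i * A j j - A i j * A j i
  m (.inl 0) (.inl 1) + m (.inl 0) (.inr 0) + m (.inl 0) (.inr 1) + m (.inl 1) (.inr 0) +
    m (.inl 1) (.inr 1) + m (.inr 0) (.inr 1)

/-- A simple group acting on the symplectic space of characteristic two without fixed vector. -/
structure Ev (ρ : G →* SpM F) : Prop where
  two : (2 : F) = 0
  four : ∃ a : F, a ≠ 0 ∧ a ≠ 1
  simple : IsSimpleGroup G
  nonab : ∃ a b : G, a * b ≠ b * a
  nofix : ∀ v, (∀ g, (ρ g).1 *ᵥ v = v) → v = 0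

/-- The centres of the transvections in the image of `ρ`. -/
def DT (ρ : G →* SpM F) : Set (I4 → F) := {w | w ≠ 0 ∧ ∃ g, ρ g = H27.spT w 1}

/-- The characteristic polynomials are defined over `K`. -/
def RatK (ρ : G →* SpM F) (K : Subfield F) : Prop :=
  ∀ g, (ρ g).1.trace ∈ K ∧ e2 (ρ g).1 ∈ K

/-- `t` is an involution of type `c₂` with point `p`. -/
structure C2At (t : SpM F) (p : I4 → F) : Prop where
  sq : t * t = 1
  ne : p ≠ 0
  form : ∀ v, ff v ((t.1 - 1) *ᵥ v) = ff v p ^ 2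
  ker : ∀ z, (t.1 - 1) *ᵥ z = 0 → ∃ x, z = (t.1 - 1) *ᵥ x
  perp : ∀ v, ff v p = 0 → ∃ k : F, (t.1 - 1) *ᵥ v = k • p

/-- All involutions are of type `c₂`. -/
def AllC2 (ρ : G →* SpM F) : Prop := ∀ t : G, t * t = 1 → t ≠ 1 → ∃ p, C2At (ρ t) p

/-- A quadratic form polarising to the alternating form. -/
structure IsQ (Q : (I4 → F) → F) : Prop where
  smul : ∀ (c : F) v, Q (c • v) = c ^ 2 * Q v
  add : ∀ u v, Q (u + v) = Q u + Q v + ff u v

end Cfsg.Agent.DIM4
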