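import Cfsg.Agent.DIM4.EvDefs
import Cfsg.Agent.H29.Sp4Graph

/-! Project DIM4, even `q`: the graph endomorphism of `Sp₄`. -/

set_option autoImplicit false

namespace Cfsg.Agent.DIM4

open Matrix H27 H29

variable {F : Type*} [Field F]

theorem exists_gamma [Finite F] (h2 : (2 : F) = 0) : ∃ γ : SpM F →* SpM F, Function.Bijective γ ∧
    (∀ g, (γ g).1.trace = e2 g.1) ∧ (∀ g, (γ (γ g)).1.trace = g.1.trace ^ 2) ∧
    ∀ t : SpM F, t * t = 1 → t ≠ 1 → (∀ v, ff v ((t.1 - 1) *ᵥ v) = 0) →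
      ∃ w, w ≠ 0 ∧ γ t = H27.spT w 1 := by
  haveI : CharP F 2 := CharTwo.of_one_ne_zero_of_two_eq_zero one_ne_zero h2
  refine ⟨grHom F, grHom_bijective, fun g => ?_, fun g => ?_, fun t ht h1 h => ?_⟩
  · have h3 := congrFun₂ (SymplecticGroup.mem_iff.1 g.2) (.inl 0) (.inr 0)
    have h4 := congrFun₂ (SymplecticGroup.mem_iff'.1 g.2) (.inl 1) (.inr 1)
    simp [mul_apply, J, Fin.sum_univ_two] at h3 h4
    simp [grHom_coe, e2, trace, grM_apply, grP, grQ, Fin.sum_univ_two]
    grind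
  · rw [grHom_coe, grHom_coe, grM_grM, ← AddMonoidHom.map_trace]; rfl
  · have h3 : ∀ i j, ff (Pi.single i 1) ((t.1 - 1) *ᵥ Pi.single j 1) +
        ff (Pi.single j 1) ((t.1 - 1) *ᵥ Pi.single i 1) = 0 := fun i j => by
      have := h (Pi.single i 1 + Pi.single j 1)
      simp only [mulVec_add, ff, sympForm_add_left, sympForm_add_right, h] at this
      linear_combination this
    have a1 := h (Pi.single (.inl 0) 1)
    have a2 := h (Pi.single (.inl 1) 1)
    have a3 := h (Pi.single (.inr 0) 1)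
    have a4 := h (Pi.single (.inr 1) 1)
    have b1 := h3 (.inl 0) (.inl 1)
    have b2 := h3 (.inl 0) (.inr 0)
    have b3 := h3 (.inl 0) (.inr 1)
    have b4 := h3 (.inl 1) (.inr 0)
    have b5 := h3 (.inl 1) (.inr 1)
    have b6 := h3 (.inr 0) (.inr 1)
    have c1 := congrFun₂ (congrArg Subtype.val ht) (.inl 0) (.inl 0)
    have c2 := congrFun₂ (congrArg Subtype.val ht) (.inl 1) (.inl 1)
    simp [sympForm_single_inl_left, sympForm_single_inr_left, one_apply, mul_apply]
      at a1 a2 a3 a4 b1 b2 b3 b4 b5 b6 c1 c2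
    have c3 : t.1 (.inl 1) (.inl 1) = t.1 (.inl 0) (.inl 0) :=
      sub_eq_zero.1 (pow_eq_zero_iff two_ne_zero |>.1 (by grind))
    have h4 : grHom F t = spT (Sum.elim ![t.1 (.inl 0) (.inr 1), t.1 (.inl 0) (.inl 1)]
        ![t.1 (.inr 0) (.inl 1), t.1 (.inl 1) (.inl 0)]) 1 := Subtype.ext (ext_of_mulVec_single fun j => by
      rw [spT_mulVec]
      ext i
      rcases i with i | i <;> rcases j with j | j <;> fin_cases i <;> fin_cases j <;>
        simp [grHom_coe, grM_apply, grP, grQ, sympForm_single_inl_left, sympForm_single_inr_left] <;>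
        grind)
    refine ⟨_, fun e => h1 (grHom_bijective.1 (sp_ext fun x => ?_)), h4⟩
    rw [h4, e, map_one, spT_mulVec, smul_zero, add_zero, sp_one_mulVec]

end Cfsg.Agent.DIM4
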