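import Cfsg.Agent.DIM4.EvBasic
import Cfsg.Prelude.Def_Sz
import Cfsg.Agent.H13.SzInst
import Cfsg.Agent.H13.SzConj
import Cfsg.Agent.H13.SzAut
import Cfsg.Agent.H9.SpCount

/-! Project DIM4, even `q`: the field of a Suzuki subgroup (see `notes/DIM4.md`). -/

set_option autoImplicit false
set_option linter.style.haveILetI false

namespace Cfsg.Agent.DIM4

open Matrix

variable {F : Type*} [Field F] [Fintype F] {G : Type*} [Group G] {ρ : G →* SpM F}

theorem Ev.sz (h : Ev ρ) (ht : ∀ K : Subfield F, (∀ g, (ρ g).1.trace ∈ K) → K = ⊤)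
    (e : Cfsg.Lie.IsoSuzuki G) : ∃ m : ℕ, 1 ≤ m ∧ Fintype.card F = 2 ^ (2 * m + 1) ∧
      Nonempty (G ≃* Cfsg.Lie.Sz F (2 ^ (m + 1))) := by
  obtain ⟨K, _, _, m, hm, hK, ⟨e⟩⟩ := e
  letI := H13.titsOfCard hK
  have Q := H13.par_of_card hm hK
  let M : H13.Model G K := (H13.lieModel (H13.titsOfCard_θ hK)).ofEquiv e
  have : CharP F 2 := (CharP.charP_iff_prime_eq_zero Nat.prime_two).2 (by exact_mod_cast h.two)
  have tp : ∀ (g : G) (k : ℕ), (ρ (g ^ 2 ^ k)).1.trace = (ρ g).1.trace ^ 2 ^ k := fun g k => by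
    induction k with
    | zero => simp
    | succ k ih => rw [pow_succ, pow_mul, pow_mul, ← ih, ← trace_sq_two h.two, sq, map_mul]; rfl
  have top := ht ((iterateFrobenius F 2 (2 * m + 1)).eqLocusField (RingHom.id F)) fun g => by
    change (ρ g).1.trace ^ 2 ^ (2 * m + 1) = (ρ g).1.trace
    by_cases h0 : M.tr g = 0
    · have : g ^ 2 ^ 2 = 1 := by
        rcases M.order_of_tr_eq_zero Q h0 with k | k | k
        · simp [k]
        · exact orderOf_dvd_iff_pow_eq_one.1 (by rw [k]; decide)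
        · exact orderOf_dvd_iff_pow_eq_one.1 (by rw [k]; decide)
      rw [trace_of_two_pow h.two (n := 2) (by rw [← map_pow, this, map_one]), zero_pow (by positivity)]
    · obtain ⟨c, hc⟩ := isConj_iff.1 (M.isConj_of_tr_eq Q (y := g ^ 2 ^ (2 * m + 1)) h0
        (by rw [M.tr_pow_two_pow, Q.pow_q]))
      rw [← tp, ← hc, map_mul, map_mul, Submonoid.coe_mul, Submonoid.coe_mul, trace_mul_comm,
        ← mul_assoc, ← Submonoid.coe_mul, ← map_mul, inv_mul_cancel, map_one, Submonoid.coe_one,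
        one_mul]
  obtain ⟨n, -, hn⟩ := FiniteField.card F 2
  have d1 : (n : ℕ) ∣ 2 * m + 1 := by
    have := (FiniteField.forall_pow_eq_one_iff F (2 ^ (2 * m + 1) - 1)).1 fun x => by
      have : (x : F) ∈ (⊤ : Subfield F) := trivial
      rw [← top] at this
      change (x : F) ^ 2 ^ (2 * m + 1) = x at this
      refine mul_right_cancel (b := x) (Units.ext ?_)
      rw [← pow_succ, Nat.sub_add_cancel Nat.one_le_two_pow, one_mul, Units.val_pow_eq_pow_val, this]
    rw [hn, ← Nat.gcd_eq_left_iff_dvd, Nat.pow_sub_one_gcd_pow_sub_one,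
      tsub_left_inj Nat.one_le_two_pow Nat.one_le_two_pow] at this
    exact Nat.gcd_eq_left_iff_dvd.1 (Nat.pow_right_injective le_rfl this)
  have d2 : 2 * m + 1 ≤ 2 * n := by
    have := Subgroup.card_dvd_of_injective ρ h.inj
    rw [M.card_G' Q, H9.card_symplecticGroup, hn] at this
    have o : ∀ i, Odd ((2 ^ (n : ℕ)) ^ (2 * (i + 1)) - 1) := fun i =>
      Nat.Even.sub_odd (Nat.one_le_pow _ _ (by positivity))
        ((Nat.even_pow' (by omega)).2 ((Nat.even_pow' n.ne_zero).2 even_two)) odd_one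
    have := (((Nat.Coprime.prod_right fun i _ => Nat.coprime_two_left.2 (o i)).pow_left _).pow_left
      2).dvd_of_dvd_mul_right ((dvd_mul_right _ _).trans (by simpa only [mul_assoc] using this))
    rw [← pow_mul, ← pow_mul, Nat.pow_dvd_pow_iff_le_right one_lt_two] at this
    omega
  have hF : Fintype.card F = 2 ^ (2 * m + 1) := by
    obtain ⟨t, ht⟩ := d1
    have : t = 1 := by
      have := Nat.le_of_mul_le_mul_left (show (n : ℕ) * t ≤ n * 2 by omega) n.pos
      interval_cases t <;> omega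
    rw [hn, ht, this, mul_one]
  refine ⟨m, hm, hF, ?_⟩
  letI := H13.titsOfCard hF
  let M' := H13.lieModel (H13.titsOfCard_θ hF)
  let f := FiniteField.ringEquivOfCardEq (hK.trans hF.symm)
  have hf : ∀ x, (f : K →+* F) (H13.Tits.θ x) = H13.Tits.θ ((f : K →+* F) x) := fun x => by
    rw [H13.titsOfCard_θ hK, H13.titsOfCard_θ hF, map_pow]
  exact ⟨MulEquiv.ofBijective (M'.embed M hf) ((Nat.bijective_iff_injective_and_card _).2
    ⟨M'.embed_injective M hf, by rw [M.card_G' Q, M'.card_G' (H13.par_of_card hm hF)]⟩)⟩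

end Cfsg.Agent.DIM4
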