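import Cfsg.Agent.DIM4.Stab
import Cfsg.Agent.H98.Burnside

/-! Project DIM4: an extraspecial group of order `32` in `Sp₄` is the group of a frame. -/

set_option autoImplicit false

namespace Cfsg.Agent.DIM4

open Matrix

open Cfsg.Geo

namespace ExA

variable {F : Type*} [Field F] {R : Subgroup (G4 F)}

theorem mul_sq (h2 : (2 : F) ≠ 0) {x y : M4 F} (hx : x ∈ Wsp F) (hy : y ∈ Wsp F) (xx : x * x = 1)
    (yy : y * y = 1) : x * y * (x * y) = bW x y • (x * y) - 1 := by
  rw [Matrix.mul_assoc, ← Matrix.mul_assoc y, swap h2 hx hy, Matrix.sub_mul, Matrix.smul_mul,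
    Matrix.one_mul, Matrix.mul_assoc, yy, Matrix.mul_one, Matrix.mul_sub, Matrix.mul_smul, xx]

theorem pm_of_smul {x y : M4 F} {c : F} (xx : x * x = 1) (yy : y * y = 1) (e : y = c • x) :
    y = x ∨ y = -x := by
  rw [e, Matrix.smul_mul, Matrix.mul_smul, xx, smul_smul] at yy
  have : c * c = 1 := by simpa using congrFun (congrFun yy (.inl 0)) (.inl 0)
  rcases mul_self_eq_one_iff.1 this with rfl | rfl
  · exact Or.inl (by simpa using e)
  · exact Or.inr (by simpa using e)

theorem four_pow (h4 : ∀ g ∈ R, g ^ 4 = 1) {A : M4 F} (hA : InG R A) : A * A * (A * A) = 1 := by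
  obtain ⟨g, hg, rfl⟩ := hA
  have := congrArg Units.val (h4 g hg)
  simpa only [pow_succ, pow_zero, one_mul, Units.val_mul, Units.val_one, mul_assoc] using this

theorem pm_or_perp (S : Std R) (h4 : ∀ g ∈ R, g ^ 4 = 1) {x y : M4 F} (hx : x ∈ Rt R)
    (hy : y ∈ Rt R) : y = x ∨ y = -x ∨ bW x y = 0 := by
  by_cases h0 : bW x y = 0
  · exact Or.inr (Or.inr h0)
  have e := four_pow h4 (hx.2.2.mul hy.2.2)
  have e1 := mul_sq S.two hx.1 hy.1 hx.2.1 hy.2.1
  generalize bW x y = b at e1 h0
  have e2 : (b ^ 2 - 2) • (x * y) = b • (1 : M4 F) := by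
    refine smul_right_injective _ h0 ?_
    rw [e1] at e
    simp only [Matrix.sub_mul, Matrix.mul_sub, Matrix.smul_mul, Matrix.mul_smul, e1, Matrix.mul_one,
      Matrix.one_mul] at e
    linear_combination (norm := module) e
  have n : b ^ 2 - 2 ≠ 0 := fun h => h0 (by
    rw [h, zero_smul] at e2
    simpa using (congrFun (congrFun e2 (.inl 0)) (.inl 0)).symm)
  rw [← or_assoc]
  refine Or.inl (pm_of_smul (c := b / (b ^ 2 - 2)) hx.2.1 hy.2.1 (smul_right_injective _ n ?_))
  have := congrArg (x * ·) e2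
  simp only [Matrix.mul_smul, ← Matrix.mul_assoc, hx.2.1, Matrix.one_mul, Matrix.mul_one] at this
  simp only [this, smul_smul, mul_div_cancel₀ _ n]

theorem one_ne_neg (h2 : (2 : F) ≠ 0) : (1 : M4 F) ≠ -1 := fun e => h2 (by
  have : (1 : F) = -1 := by simpa using congrFun (congrFun e (.inl 0)) (.inl 0)
  linear_combination this)

theorem sq_pm (S : Std R) (h4 : ∀ g ∈ R, g ^ 4 = 1)
    (hA : ∀ A : Subgroup R, A.Characteristic → IsMulCommutative A → IsCyclic A) {g : G4 F}
    (hg : g ∈ R) : g * g = 1 ∨ g * g = -1 := by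
  by_contra hn
  rw [not_or] at hn
  have hx : ((g * g : G4 F) : M4 F) ∈ Rt R := S.mem_Rt (R.mul_mem hg hg)
    (by rw [← h4 g hg]; simp only [pow_succ, pow_zero, one_mul, mul_assoc]) hn.1 hn.2
  set x : M4 F := ((g * g : G4 F) : M4 F) with hxe
  have t := S.two
  have all : ∀ y ∈ Rt R, y = x ∨ y = -x := by
    intro y hy
    by_contra hy'
    rw [not_or] at hy'
    have xy : bW x y = 0 := ((pm_or_perp S h4 hx hy).resolve_left hy'.1).resolve_left hy'.2
    have hz := S.conj_mem hg hy
    set z := (g : M4 F) * y * ((g⁻¹ : G4 F) : M4 F) with hze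
    have gx : (g : M4 F) * x * ((g⁻¹ : G4 F) : M4 F) = x := by
      rw [hxe, ← Units.val_mul, ← Units.val_mul]; congr 1; group
    have xz : bW x z = 0 := by rw [← gx, bW_conj, xy]
    have a1 := anti_of_perp t hx.1 hy.1 xy
    have gz : (g : M4 F) * z * ((g⁻¹ : G4 F) : M4 F) = -y := by
      rw [hze, ← conj_conj, ← hxe, ← adj_coe (S.le (R.mul_mem hg hg)), ← hxe, hx.1.1,
        sandwich t hx.1 hy.1, bW_comm, xy, S.rs.qW hx]
      simp
    have yz : bW y z = 0 := by
      rcases pm_or_perp S h4 hy hz with e | e | e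
      · exact absurd (by rw [← gz, e, ← hze, e]) (S.rs.ne_neg hy)
      · refine absurd ?_ (S.rs.ne_neg hy)
        rw [← gz]
        conv_rhs => rw [e, Matrix.mul_neg, Matrix.neg_mul, ← hze, e, neg_neg]
      · exact e
    have a2 := anti_of_perp t hx.1 hz.1 xz
    have a3 := anti_of_perp t hy.1 hz.1 yz
    have e := four_pow h4 ((InG.of_mem hg).mul hy.2.2)
    have e1 : (g : M4 F) * y * (g * y) = z * x * y := by
      rw [hze, hxe, Units.val_mul]
      simp only [Matrix.mul_assoc, Units.inv_mul_cancel_left]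
    rw [e1] at e
    refine one_ne_neg t (e.symm.trans ?_)
    calc z * x * y * (z * x * y) = z * x * (y * z) * x * y := by simp only [Matrix.mul_assoc]
      _ = -(z * (x * z) * (y * x) * y) := by
        rw [show y * z = -(z * y) by rw [a3, neg_neg]]
        simp only [Matrix.mul_assoc, Matrix.mul_neg, Matrix.neg_mul]
      _ = -((z * z) * (x * x) * (y * y)) := by
        rw [show x * z = -(z * x) by rw [a2, neg_neg], a1]
        simp only [Matrix.mul_assoc, Matrix.mul_neg, Matrix.neg_mul, neg_neg]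
      _ = -1 := by rw [hz.2.1, hx.2.1, hy.2.1]; simp
  have comm : ∀ a b : R, a * a = 1 → b * b = 1 → a * b = b * a := by
    have k : ∀ a : R, a * a = 1 → ((a : G4 F) : M4 F) = 1 ∨ ((a : G4 F) : M4 F) = -1 ∨
        ((a : G4 F) : M4 F) = x ∨ ((a : G4 F) : M4 F) = -x := fun a ha => by
      by_cases h1 : (a : G4 F) = 1
      · exact Or.inl (by rw [h1]; rfl)
      by_cases h1' : (a : G4 F) = -1
      · exact Or.inr (Or.inl (by rw [h1']; rfl))
      exact Or.inr (Or.inr (all _ (S.mem_Rt a.2 (congrArg Subtype.val ha) h1 h1')))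
    intro a b ha hb
    refine Subtype.ext (Units.ext ?_)
    change ((a : G4 F) : M4 F) * ((b : G4 F) : M4 F) = ((b : G4 F) : M4 F) * ((a : G4 F) : M4 F)
    rcases k a ha with e | e | e | e <;> rcases k b hb with e' | e' | e' | e' <;> simp [e, e']
  let A : Subgroup R :=
    { carrier := {a | a * a = 1}
      one_mem' := mul_one _
      mul_mem' := fun {a b} ha hb => by
        change a * b * (a * b) = 1
        rw [mul_assoc, ← mul_assoc b, ← comm a b ha hb, mul_assoc, hb, mul_one, ha]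
      inv_mem' := fun {a} ha => by
        change a⁻¹ * a⁻¹ = 1
        rw [← _root_.mul_inv_rev, ha, inv_one] }
  have hc := hA A (Subgroup.characteristic_iff_le_comap.2 fun φ a ha => by
      change φ a * φ a = 1
      rw [← map_mul, ha, map_one])
    ⟨⟨fun a b => Subtype.ext (comm _ _ a.2 b.2)⟩⟩
  obtain ⟨c, hc⟩ := hc.exists_generator
  have cc : c * c = 1 := Subtype.ext c.2
  have gen : ∀ a : A, a = 1 ∨ a = c := fun a => by
    obtain ⟨n, rfl⟩ := hc a
    have c2 : c ^ (2 : ℤ) = 1 := by rw [zpow_two, cc]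
    rcases Int.even_or_odd' n with ⟨m, rfl | rfl⟩
    · left; simp only [_root_.zpow_mul, c2, _root_.one_zpow]
    · right; simp only [_root_.zpow_add, _root_.zpow_mul, c2, _root_.one_zpow, one_mul, zpow_one]
  have e1 := (gen ⟨⟨-1, S.neg⟩, Subtype.ext (by simp)⟩).resolve_left fun e =>
    one_ne_neg t (congrArg (fun a : A => (((a : R) : G4 F) : M4 F)) e).symm
  have e2 := (gen ⟨⟨g * g, R.mul_mem hg hg⟩, Subtype.ext (Units.ext hx.2.1)⟩).resolve_left fun e =>
    hn.1 (congrArg (fun a : A => ((a : R) : G4 F)) e)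
  exact hn.2 (congrArg (fun a : A => ((a : R) : G4 F)) (e2.trans e1.symm))

theorem W_le_span (S : Std R) (hsq : ∀ g ∈ R, g * g = 1 ∨ g * g = -1) (ht : H98.grpAlg R = ⊤) :
    Wsp F ≤ Submodule.span F (Rt R) := by
  have t := S.two
  have key : ∀ A : M4 F, A + adj A - (A.trace / 2) • (1 : M4 F) ∈ Submodule.span F (Rt R) := by
    intro A
    refine H98.grpAlg_induction (N := R)
      (p := fun A => A + adj A - (A.trace / 2) • (1 : M4 F) ∈ Submodule.span F (Rt R)) ?_ ?_ ?_ ?_
      (by rw [ht]; trivial)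
    · intro g hg
      have one : (1 : M4 F) + adj 1 - ((1 : M4 F).trace / 2) • (1 : M4 F) = 0 := by
        rw [adj_one, trace_one4, show (4 : F) / 2 = 2 by field_simp; norm_num]; module
      rcases hsq g hg with e | e
      · by_cases h1 : g = 1
        · rw [h1, Units.val_one, one]; exact zero_mem _
        by_cases h1' : g = -1
        · rw [h1', Units.val_neg, Units.val_one, adj_neg, trace_neg, neg_div, neg_smul]
          rw [show -1 + -adj (1 : M4 F) - -(((1 : M4 F).trace / 2) • (1 : M4 F)) = 0 by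
            linear_combination (norm := module) -one]
          exact zero_mem _
        have m := S.mem_Rt hg e h1 h1'
        rw [m.1.1, m.1.2, zero_div, zero_smul, sub_zero]
        exact add_mem (Submodule.subset_span m) (Submodule.subset_span m)
      · have a : adj (g : M4 F) = -g := by
          rw [adj_coe (S.le hg), ← Units.val_neg]
          congr 1
          exact inv_eq_of_mul_eq_one_right (by rw [mul_neg, e, neg_neg])
        have tr : (g : M4 F).trace = 0 := by
          have := trace_adj (g : M4 F)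
          rw [a, trace_neg] at this
          exact (mul_eq_zero.1 (by linear_combination -this : 2 * (g : M4 F).trace = 0)).resolve_left t
        rw [a, tr]; simp
    · simp [adj_zero]
    · intro A B hA hB
      convert add_mem hA hB using 1
      rw [adj_add, trace_add, add_div]; module
    · intro c A hA
      convert Submodule.smul_mem _ c hA using 1
      rw [adj_smul, trace_smul, smul_eq_mul, mul_div_assoc]; module
  intro v hv
  have := key v
  rw [hv.1, hv.2, zero_div, zero_smul, sub_zero, ← two_smul F] at this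
  exact (Submodule.smul_mem_iff _ t).1 this

theorem exists_frame {D : Set (M4 F)} (h : RS D) (hs : Wsp F ≤ Submodule.span F D)
    (hp : ∀ x ∈ D, ∀ y ∈ D, y = x ∨ y = -x ∨ bW x y = 0) :
    ∃ x : Fin 5 → M4 F, Orth D x ∧ ∀ y ∈ D, ∃ j, y = x j ∨ y = -x j := by
  obtain ⟨b, hb, hsp, hli⟩ := exists_linearIndependent F D
  have e : Submodule.span F b = Wsp F :=
    le_antisymm (Submodule.span_le.2 fun x hx => h.mem x (hb hx)) (hsp ▸ hs)
  have : Fintype b := (LinearIndependent.set_finite_of_isNoetherian hli).fintype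
  have c : Fintype.card b = 5 := by
    rw [← finrank_Wsp h.two, ← e, ← finrank_span_eq_card hli, Subtype.range_coe_subtype,
      Set.ofPred_mem_eq]
  let σ : Fin 5 ≃ b := (Fintype.equivFinOfCardEq c).symm
  have ho : Orth D fun i => (σ i : M4 F) := ⟨fun i => hb (σ i).2, fun i j hij => by
    have ne : σ i ≠ σ j := fun e => hij (σ.injective e)
    rcases hp _ (hb (σ i).2) _ (hb (σ j).2) with e | e | e
    · exact absurd (Subtype.ext e.symm) ne
    · have := (hli.comp ![σ i, σ j] (by
        intro a b hab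
        fin_cases a <;> fin_cases b <;> simp_all [eq_comm]))
      have e' : (fun a : b => (a : M4 F)) ∘ ![σ i, σ j] = ![(σ i : M4 F), (σ j : M4 F)] := by
        ext1 a; fin_cases a <;> rfl
      rw [e'] at this
      exact absurd ((LinearIndependent.pair_iff.1 this 1 1 (by rw [e]; simp)).1) one_ne_zero
    · exact e⟩
  refine ⟨_, ho, fun y hy => ?_⟩
  by_contra hn
  push Not at hn
  refine h.ne_zero hy ((ho.expand h (h.mem y hy)).trans (Finset.sum_eq_zero fun i _ => ?_))
  rw [bW_comm, ((hp _ (ho.1 i) y hy).resolve_left (hn i).1).resolve_left (hn i).2, zero_div,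
    zero_smul]

/-- No invertible matrix anticommutes with a frame. -/
theorem not_anti {D : Set (M4 F)} (h : RS D) {x : Fin 5 → M4 F} (hx : Orth D x) {k : G4 F}
    (hk : ∀ i, (k : M4 F) * x i = -(x i * k)) : False := by
  have m := fun i => h.mem _ (hx.1 i)
  obtain ⟨w, ww, -⟩ := four_mem h.two (m 0) (m 1) (m 2) (m 3) (hx.2 0 1 (by decide))
    (hx.2 0 2 (by decide)) (hx.2 0 3 (by decide)) (hx.2 1 2 (by decide)) (hx.2 1 3 (by decide))
    (hx.2 2 3 (by decide))
  have L : ∀ i (z : M4 F), (k : M4 F) * (x i * z) = -(x i * (k * z)) := fun i z => by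
    rw [← Matrix.mul_assoc, hk, Matrix.neg_mul, Matrix.mul_assoc]
  have e1 : (k : M4 F) * (x 0 * x 1 * x 2 * x 3) = x 0 * x 1 * x 2 * x 3 * k := by
    simp only [Matrix.mul_assoc, L, hk, Matrix.mul_neg, neg_neg]
  generalize x 0 * x 1 * x 2 * x 3 = v at w ww e1
  have e2 : (k : M4 F) * v = -(v * k) := by
    rw [hx.expand h w, Matrix.mul_sum, Matrix.sum_mul, ← Finset.sum_neg_distrib]
    exact Finset.sum_congr rfl fun i _ => by rw [Matrix.mul_smul, Matrix.smul_mul, hk, smul_neg]
  have e3 : v * k = 0 := smul_right_injective _ h.two (by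
    change (2 : F) • (v * k) = (2 : F) • (0 : M4 F)
    rw [two_smul, smul_zero, add_eq_zero_iff_eq_neg, ← e2, e1])
  have e4 : v = 0 := by rw [← Units.mul_inv_cancel_right v k, e3, Matrix.zero_mul]
  simp only [e4, h.qW (hx.1 _), Matrix.mul_zero, mul_one, one_smul] at ww
  exact zero_ne_one ww

theorem mem_of_signs (S : Std R) {x : Fin 5 → M4 F} (hx : Orth (Rt R) x) (s : Finset (Fin 5)) :
    ∀ k ∈ Cfsg.spGL 2 F, ∀ c : F, (c = 1 ∨ c = -1) →
      (∀ i, (k : M4 F) * x i = (if i ∈ s then -c else c) • (x i * k)) → k ∈ R := by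
  induction s using Finset.induction_on with
  | empty =>
    intro k hk c hc h
    rcases hc with rfl | rfl
    · rcases pm_of_comm hk (fun v hv => by
        rw [hx.expand S.rs hv, Matrix.mul_sum, Matrix.sum_mul]
        exact Finset.sum_congr rfl fun i _ => by
          rw [Matrix.mul_smul, Matrix.smul_mul, h]; simp) with rfl | rfl
      · exact R.one_mem
      · exact S.neg
    · exact (not_anti S.rs hx (k := k) fun i => by simpa using h i).elim
  | insert a s ha ih =>
    intro k hk c hc h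
    obtain ⟨u, hu, e⟩ := (hx.1 a).2.2
    refine (R.mul_mem_cancel_left hu).1 (ih _ (mul_mem (S.le hu) hk) (-c)
      (hc.symm.imp (by rintro rfl; simp) (by rintro rfl; rfl)) fun i => ?_)
    rw [Units.val_mul, e, Matrix.mul_assoc, h, Matrix.mul_smul, ← Matrix.mul_assoc,
      ← Matrix.mul_assoc]
    by_cases hi : i = a
    · simp [hi, ha]
    · rw [anti_of_perp S.two (hx.1 i).1 (hx.1 a).1 (hx.2 i a hi)]
      by_cases hs : i ∈ s <;> simp [hi, hs]

theorem mem_iff (S : Std R) (hsq : ∀ g ∈ R, g * g = 1 ∨ g * g = -1) {x : Fin 5 → M4 F}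
    (hx : Orth (Rt R) x) (hall : ∀ y ∈ Rt R, ∃ j, y = x j ∨ y = -x j) {k : G4 F}
    (hk : k ∈ Cfsg.spGL 2 F) : k ∈ R ↔ ∀ i, (k : M4 F) * x i * ((k⁻¹ : G4 F) : M4 F) = x i ∨
      (k : M4 F) * x i * ((k⁻¹ : G4 F) : M4 F) = -x i := by
  classical
  refine ⟨fun h i => ?_, fun h => ?_⟩
  · obtain ⟨u, hu, e⟩ := (hx.1 i).2.2
    have hy := S.conj_mem h (hx.1 i)
    have e1 : ((k * u * (k * u) : G4 F) : M4 F) =
        (k : M4 F) * x i * ((k⁻¹ : G4 F) : M4 F) * ((k * k : G4 F) : M4 F) * x i := by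
      simp only [Units.val_mul, e, Matrix.mul_assoc, Units.inv_mul_cancel_left]
    generalize (k : M4 F) * x i * ((k⁻¹ : G4 F) : M4 F) = y at hy e1
    have : ∃ c : F, y * x i = c • (1 : M4 F) := by
      rcases hsq _ (R.mul_mem h hu) with a | a <;> rcases hsq _ h with b | b <;> rw [a, b] at e1
      · exact ⟨1, by simpa using e1.symm⟩
      · exact ⟨-1, by simpa [neg_eq_iff_eq_neg] using e1.symm⟩
      · exact ⟨-1, by simpa using e1.symm⟩
      · exact ⟨1, by simpa using e1.symm⟩
    obtain ⟨c, hc⟩ := this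
    refine pm_of_smul (c := c) (hx.1 i).2.1 hy.2.1 ?_
    rw [← Matrix.mul_one y, ← (hx.1 i).2.1, ← Matrix.mul_assoc, hc, Matrix.smul_mul, Matrix.one_mul]
  · refine mem_of_signs S hx (Finset.univ.filter fun i =>
      (k : M4 F) * x i * ((k⁻¹ : G4 F) : M4 F) ≠ x i) k hk 1 (Or.inl rfl) fun i => ?_
    rw [← Units.inv_mul_cancel_right ((k : M4 F) * x i) k]
    by_cases e : (k : M4 F) * x i * ((k⁻¹ : G4 F) : M4 F) = x i
    · rw [if_neg (by simpa using e), e, one_smul]
    · have := (h i).resolve_left e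
      rw [if_pos (by simpa using e), this]; simp

end ExA

open ExA

variable {F : Type*} [Field F] [Finite F]

theorem extra_frame (h2 : (2 : F) ≠ 0) {R : Subgroup (G4 F)} (hR : IsSymplecticTypeGroup 2 R)
    (hi : ActsAbsolutelyIrreducibly (matrixSet R)) (hle : R ≤ Cfsg.spGL 2 F)
    (hc : Nat.card R = 32) (hz : Nat.card (Subgroup.center R) = 2) :
    ∃ x : Fin 5 → M4 F, Orth (Rt (Cfsg.spGL 2 F)) x ∧ ∀ g : G4 F,
      g ∈ subgroupNormalizer R ⊓ Cfsg.spGL 2 F ↔ g ∈ Cfsg.spGL 2 F ∧ ∀ i, ∃ j,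
        (g : M4 F) * x i * ((g⁻¹ : G4 F) : M4 F) = x j ∨
        (g : M4 F) * x i * ((g⁻¹ : G4 F) : M4 F) = -x j := by
  have _ := hc
  have ht := H98.grpAlg_eq_top_of_absIrr hi
  have S : Std R := by
    refine ⟨h2, hle, ?_⟩
    have : Nontrivial (Subgroup.center R) := Finite.one_lt_card_iff_nontrivial.1 (by omega)
    obtain ⟨z, hz1⟩ := exists_ne (1 : Subgroup.center R)
    rcases pm_of_comm (hle (z : R).2) (fun v _ => H98.commute_grpAlg (N := R) (fun g hg =>
      (congrArg (fun a : R => ((a : G4 F) : M4 F))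
        (Subgroup.mem_center_iff.1 z.2 ⟨g, hg⟩)).symm) (by rw [ht]; trivial)) with e | e
    · exact absurd (Subtype.ext (Subtype.ext e)) hz1
    · exact e ▸ (z : R).2
  have h4 : ∀ g ∈ R, g ^ 4 = 1 := fun g hg => by
    have := Monoid.pow_exponent_eq_one (⟨g, hg⟩ : R)
    rw [hR.exponent_eq] at this
    exact congrArg Subtype.val this
  have hsq := fun g hg => sq_pm S h4 hR.cyclic_of_characteristic (g := g) hg
  obtain ⟨x, hx, hall⟩ := exists_frame S.rs (W_le_span S hsq ht) fun x hx y hy =>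
    pm_or_perp S h4 hx hy
  refine ⟨x, ⟨fun i => Rt.mono hle (hx.1 i), hx.2⟩, fun g => ⟨fun hg => ⟨hg.2, fun i => ?_⟩,
    fun hg => ⟨?_, hg.1⟩⟩⟩
  · obtain ⟨u, hu, e⟩ := (hx.1 i).2.2
    refine hall _ ⟨conj_mem_W hg.2 (hx.1 i).1, by
      rw [conj_mul, (hx.1 i).2.1, Matrix.mul_one, Units.mul_inv], g * u * g⁻¹,
      (Subgroup.mem_normalizer_iff.1 hg.1 u).1 hu, by rw [Units.val_mul, Units.val_mul, e]⟩
  · refine (inv_mem_iff (H := subgroupNormalizer R)).1 (Subgroup.mem_normalizer_fintype fun k hk => ?_)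
    refine (mem_iff S hsq hx hall (mul_mem (mul_mem (inv_mem hg.1) (hle hk)) (inv_mem (inv_mem hg.1)))).2
      fun i => ?_
    have back : ∀ y : M4 F, ((g⁻¹ : G4 F) : M4 F) * ((g : M4 F) * y * ((g⁻¹ : G4 F) : M4 F)) *
        ((g⁻¹⁻¹ : G4 F) : M4 F) = y := fun y => by rw [← conj_conj]; simp
    rw [conj_conj, conj_conj, inv_inv]
    obtain ⟨j, hj⟩ := hg.2 i
    have hkj := (mem_iff S hsq hx hall (hle hk)).1 hk j
    have : (k : M4 F) * ((g : M4 F) * x i * ((g⁻¹ : G4 F) : M4 F)) * ((k⁻¹ : G4 F) : M4 F) =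
        (g : M4 F) * x i * ((g⁻¹ : G4 F) : M4 F) ∨
        (k : M4 F) * ((g : M4 F) * x i * ((g⁻¹ : G4 F) : M4 F)) * ((k⁻¹ : G4 F) : M4 F) =
        -((g : M4 F) * x i * ((g⁻¹ : G4 F) : M4 F)) := by
      rcases hj with e | e <;> rw [e]
      · exact hkj
      · rw [Matrix.mul_neg, Matrix.neg_mul]
        exact hkj.imp (fun h => by rw [h]) fun h => by rw [h]
    rw [inv_inv] at back
    refine this.imp (fun h => by rw [h, back]) fun h => ?_
    rw [h, Matrix.mul_neg, Matrix.neg_mul, back]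

end Cfsg.Agent.DIM4
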