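import Cfsg.Agent.DIM4.Colour

/-! Project DIM4: tame root systems containing an orthogonal frame (see `notes/DIM4.md`). -/

set_option autoImplicit false

namespace Cfsg.Agent.DIM4

open Matrix

variable {F : Type*} [Field F] {D : Set (M4 F)}

namespace FrmA

open Finset Col

open Classical in
/-- The support of a coordinate vector. -/
noncomputable def supp (c : Fin 5 → F) : Finset (Fin 5) := univ.filter fun i => c i ≠ 0

theorem mem_supp {c : Fin 5 → F} {i : Fin 5} : i ∈ supp c ↔ c i ≠ 0 := by simp [supp]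

theorem not_mem_supp {c : Fin 5 → F} {i : Fin 5} : i ∉ supp c ↔ c i = 0 := by simp [supp]

/-- The three types of coordinate vectors. -/
def Typ (c : Fin 5 → F) : Prop :=
  ((supp c).card = 1 ∧ ∀ i ∈ supp c, c i ^ 2 = 4) ∨ ((supp c).card = 4 ∧ ∀ i ∈ supp c, c i ^ 2 = 1) ∨
    ((supp c).card = 3 ∧ ∀ i ∈ supp c, ∀ j ∈ supp c, i ≠ j → c i ^ 2 ≠ c j ^ 2)

theorem typ_of_card_one {c : Fin 5 → F} (hs : ∑ i, c i ^ 2 = 4) (h : (supp c).card = 1) :
    Typ c := by
  refine Or.inl ⟨h, fun i hi => ?_⟩
  rw [← hs, sum_eq_single i _ (by simp)]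
  intro j _ hj
  by_contra h0
  exact hj (card_le_one.1 h.le j (mem_supp.2 fun e => h0 (by rw [e]; ring)) i hi)

theorem typ_of (h2 : (2 : F) ≠ 0) {c : Fin 5 → F} (hs : ∑ i, c i ^ 2 = 4)
    (hv : ∀ i, c i = 0 ∨ c i ^ 2 = 1 ∨ Tau (c i ^ 2))
    (hp : ∀ i j, i ≠ j → Tau (c i ^ 2) → Tau (c j ^ 2) → c i ^ 2 + c j ^ 2 = 3 ∧ c i ^ 2 ≠ c j ^ 2) :
    Typ c := by
  classical
  by_cases h1 : (supp c).card = 1
  · exact typ_of_card_one hs h1
  set T : Finset (Fin 5) := univ.filter fun i => Tau (c i ^ 2) with hT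
  have mT : ∀ {i}, i ∈ T ↔ Tau (c i ^ 2) := fun {i} => by simp [hT]
  have sub : T ⊆ supp c := fun i hi => mem_supp.2 fun e =>
    not_tau_zero (F := F) (by simpa [e] using mT.1 hi)
  have one : ∀ i ∈ supp c \ T, c i ^ 2 = 1 := fun i hi =>
    (((hv i).resolve_left (mem_supp.1 (mem_sdiff.1 hi).1)).resolve_right
      fun e => (mem_sdiff.1 hi).2 (mT.2 e))
  have e1 : ∑ i ∈ supp c, c i ^ 2 = 4 := by
    rw [← hs]
    refine sum_subset (subset_univ _) fun i _ hi => ?_
    rw [not_mem_supp.1 hi]; ring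
  rw [← sum_sdiff sub, sum_congr rfl one, sum_const, nsmul_eq_mul, mul_one] at e1
  have cd := card_sdiff_add_card_eq_card sub
  have c5 : (supp c).card ≤ 5 := (card_le_univ _).trans (by simp)
  have cT : T.card ≤ 2 := by
    by_contra hc
    obtain ⟨i, hi, j, hj, k, hk, hij, hik, hjk⟩ := two_lt_card.1 (not_le.1 hc)
    have a := hp i j hij (mT.1 hi) (mT.1 hj)
    have b := hp i k hik (mT.1 hi) (mT.1 hk)
    exact (hp j k hjk (mT.1 hj) (mT.1 hk)).2 (by linear_combination a.1 - b.1)
  have n1 := one_ne_zero (α := F)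
  have h4 := four_ne h2
  generalize hm : (supp c \ T).card = m at e1 cd
  obtain h0 | h0 | h0 : T.card = 0 ∨ T.card = 1 ∨ T.card = 2 := by omega
  · have h0' := card_eq_zero.1 h0
    rw [h0', sum_empty, add_zero] at e1
    have hm5 : m ≤ 5 := by omega
    have : m = 4 := by
      interval_cases m
      · exact (h4 (by simpa using e1.symm)).elim
      · omega
      · exact (h2 (by push_cast at e1; linear_combination -e1)).elim
      · exact (n1 (by push_cast at e1; linear_combination -e1)).elim
      · rfl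
      · exact (n1 (by push_cast at e1; linear_combination e1)).elim
    exact Or.inr (Or.inl ⟨by omega, fun i hi => one i (by rw [h0', sdiff_empty]; exact hi)⟩)
  · exfalso
    obtain ⟨i, hi⟩ := card_eq_one.1 h0
    have ti : Tau (c i ^ 2) := mT.1 (hi ▸ mem_singleton_self i)
    rw [hi, sum_singleton] at e1
    have hm5 : m ≤ 4 := by omega
    interval_cases m
    · omega
    · exact not_tau_three ((by push_cast at e1; linear_combination e1 : c i ^ 2 = 3) ▸ ti)
    · exact not_tau_two ((by push_cast at e1; linear_combination e1 : c i ^ 2 = 2) ▸ ti)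
    · exact not_tau_one ((by push_cast at e1; linear_combination e1 : c i ^ 2 = 1) ▸ ti)
    · exact not_tau_zero ((by push_cast at e1; linear_combination e1 : c i ^ 2 = 0) ▸ ti)
  · obtain ⟨i, j, hij, hi⟩ := card_eq_two.1 h0
    have ti : Tau (c i ^ 2) := mT.1 (hi ▸ by simp)
    have tj : Tau (c j ^ 2) := mT.1 (hi ▸ by simp)
    rw [hi, sum_pair hij, (hp i j hij ti tj).1] at e1
    have hm5 : m ≤ 3 := by omega
    have : m = 1 := by
      interval_cases m
      · exact (n1 (by push_cast at e1; linear_combination -e1)).elim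
      · rfl
      · exact (n1 (by push_cast at e1; linear_combination e1)).elim
      · exact (h2 (by push_cast at e1; linear_combination e1)).elim
    refine Or.inr (Or.inr ⟨by omega, fun k hk l hl hkl e => ?_⟩)
    by_cases a : k ∈ T <;> by_cases b : l ∈ T
    · exact (hp k l hkl (mT.1 a) (mT.1 b)).2 e
    · exact not_tau_one ((e.trans (one l (mem_sdiff.2 ⟨hl, b⟩))) ▸ mT.1 a)
    · exact not_tau_one ((e.symm.trans (one k (mem_sdiff.2 ⟨hk, a⟩))) ▸ mT.1 b)
    · exact hkl (card_le_one.1 (hm.trans this).le k (mem_sdiff.2 ⟨hk, a⟩) l (mem_sdiff.2 ⟨hl, b⟩))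

/-- The coordinate vectors of a tame root system with respect to a frame. -/
structure Sys (C : Set (Fin 5 → F)) : Prop where
  two : (2 : F) ≠ 0
  ne2 : ∀ c ∈ C, ∀ i, c i ^ 2 ≠ 2
  typ : ∀ c ∈ C, Typ c
  refl : ∀ c ∈ C, ∀ d ∈ C, ∀ t : F, 2 * t = ∑ i, d i * c i → d - t • c ∈ C
  sign : ∀ c ∈ C, ∀ i, Function.update c i (-c i) ∈ C
  conn : ∀ m, ∃ c ∈ C, c m ≠ 0 ∧ (supp c).card ≠ 1

variable {C : Set (Fin 5 → F)}

theorem Sys.sq_mem (S : Sys C) {c d : Fin 5 → F} (hc : c ∈ C) (h : ∀ i, d i ^ 2 = c i ^ 2) :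
    d ∈ C := by
  have key : ∀ s : Finset (Fin 5), (fun i => if i ∈ s then d i else c i) ∈ C := by
    intro s
    induction s using Finset.induction_on with
    | empty => simpa using hc
    | insert a s ha ih =>
      rcases sq_eq_sq_iff_eq_or_eq_neg.1 (h a) with e | e
      · convert ih using 2 with i
        by_cases hi : i = a <;> simp [hi, ha, e]
      · convert S.sign _ ih a using 2 with i
        by_cases hi : i = a <;> simp [hi, ha, e]
  simpa using key univ

theorem Sys.card (S : Sys C) {c : Fin 5 → F} (hc : c ∈ C) :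
    (supp c).card = 1 ∨ (supp c).card = 4 ∨ (supp c).card = 3 :=
  (S.typ c hc).imp And.left (Or.imp And.left And.left)

theorem supp_sub {c d : Fin 5 → F} (t : F) : supp (d - t • c) ⊆ supp c ∪ supp d := fun i hi => by
  by_contra h
  rw [mem_union, not_or, not_mem_supp, not_mem_supp] at h
  exact mem_supp.1 hi (by simp [h.1, h.2])

theorem sub_supp {c d : Fin 5 → F} {t : F} (ht : t ≠ 0) :
    (supp c ∪ supp d) \ (supp c ∩ supp d) ⊆ supp (d - t • c) := fun i hi => by
  simp only [mem_sdiff, mem_union, mem_inter, mem_supp, not_and, not_not] at hi ⊢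
  by_cases h : c i = 0
  · simpa [h] using hi.1
  · simp [hi.2 h, ht, h]

theorem sum_inter (c d : Fin 5 → F) : ∑ i, d i * c i = ∑ i ∈ supp c ∩ supp d, d i * c i :=
  (sum_subset (subset_univ _) fun i _ hi => by
    rw [mem_inter, not_and_or, not_mem_supp, not_mem_supp] at hi
    rcases hi with h | h <;> simp [h]).symm

/-- Supports meeting in one index. -/
theorem Sys.one (S : Sys C) {c d : Fin 5 → F} (hc : c ∈ C) (hd : d ∈ C)
    (h : (supp c ∩ supp d).card = 1) : ∃ e ∈ C, supp e = supp c ∪ supp d := by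
  obtain ⟨i, hi⟩ := card_eq_one.1 h
  have hi' : i ∈ supp c ∩ supp d := hi ▸ mem_singleton_self i
  have ci := mem_supp.1 (mem_inter.1 hi').1
  have di := mem_supp.1 (mem_inter.1 hi').2
  have t2 := S.two
  refine ⟨_, S.refl c hc d hd (d i * c i / 2) (by rw [sum_inter, hi, sum_singleton]; field_simp),
    (supp_sub _).antisymm fun j hj => ?_⟩
  by_cases e : j = i
  · subst e
    refine mem_supp.2 fun e => S.ne2 c hc j (mul_left_cancel₀ di ?_)
    simp only [Pi.sub_apply, Pi.smul_apply, smul_eq_mul] at e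
    field_simp at e
    linear_combination -e
  · exact sub_supp (div_ne_zero (mul_ne_zero di ci) t2)
      (mem_sdiff.2 ⟨hj, by rw [hi]; simpa using e⟩)

/-- Supports meeting in two indices. -/
theorem Sys.pair (S : Sys C) {c d : Fin 5 → F} (hc : c ∈ C) (hd : d ∈ C)
    (h : (supp c ∩ supp d).card = 2) :
    ∃ e ∈ C, (supp c ∪ supp d) \ (supp c ∩ supp d) ⊆ supp e ∧ supp e ⊆ supp c ∪ supp d := by
  obtain ⟨i, j, hij, hi⟩ := card_eq_two.1 h
  have hj' : j ∈ supp c ∩ supp d := hi ▸ by simp
  have cj := mem_supp.1 (mem_inter.1 hj').1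
  have dj := mem_supp.1 (mem_inter.1 hj').2
  have t2 := S.two
  by_cases h0 : d i * c i + d j * c j = 0
  · have es : supp (Function.update d i (-d i)) = supp d := by
      ext k; by_cases hk : k = i <;> simp [mem_supp, hk]
    have ht : (-(d i * c i) + d j * c j) / 2 ≠ 0 := div_ne_zero
      (fun e => mul_ne_zero t2 (mul_ne_zero dj cj) (by linear_combination e + h0)) t2
    refine ⟨_, S.refl c hc _ (S.sign d hd i) ((-(d i * c i) + d j * c j) / 2) ?_, ?_, ?_⟩
    · rw [sum_inter, es, hi, sum_pair hij, Function.update_self, Function.update_of_ne hij.symm]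
      field_simp
    · rw [← es]; exact sub_supp ht
    · rw [← es]; exact supp_sub _
  · exact ⟨_, S.refl c hc d hd ((d i * c i + d j * c j) / 2)
      (by rw [sum_inter, hi, sum_pair hij]; field_simp), sub_supp (div_ne_zero h0 t2), supp_sub _⟩

/-- A support of size four contains every support of size three. -/
theorem Sys.four_three (S : Sys C) {c d : Fin 5 → F} (hc : c ∈ C) (hd : d ∈ C)
    (h4 : (supp c).card = 4) (h3 : (supp d).card = 3) (h : supp c ∪ supp d = univ) : False := by
  have h2 : (supp c ∩ supp d).card = 2 := by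
    have := card_union_add_card_inter (supp c) (supp d)
    rw [h, card_univ, Fintype.card_fin] at this
    omega
  obtain ⟨i, j, hij, hi⟩ := card_eq_two.1 h2
  have hi' : i ∈ supp c ∩ supp d := hi ▸ by simp
  have hj' : j ∈ supp c ∩ supp d := hi ▸ by simp
  have c1 : ∀ i ∈ supp c, c i ^ 2 = 1 := by
    rcases S.typ c hc with t | t | t
    · omega
    · exact t.2
    · omega
  have d1 : d i ^ 2 ≠ d j ^ 2 := by
    rcases S.typ d hd with t | t | t
    · omega
    · omega
    · exact t.2 i (mem_inter.1 hi').2 j (mem_inter.1 hj').2 hij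
  have ci := c1 i (mem_inter.1 hi').1
  have cj := c1 j (mem_inter.1 hj').1
  have t2 := S.two
  have sq : ∀ s : F, s ^ 2 = 1 → d i * c i ≠ s * (d j * c j) := fun s hs e => d1 (by
    have := congrArg (· ^ 2) e
    simp only [mul_pow, ci, cj, hs, mul_one, one_mul] at this
    exact this)
  have ht : (d i * c i + d j * c j) / 2 ≠ 0 :=
    div_ne_zero (fun e => sq (-1) (by ring) (by linear_combination e)) t2
  have he := S.refl c hc d hd ((d i * c i + d j * c j) / 2)
    (by rw [sum_inter, hi, sum_pair hij]; field_simp)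
  have : supp (d - ((d i * c i + d j * c j) / 2) • c) = univ := by
    refine eq_univ_of_forall fun k => ?_
    by_cases a : k = i
    · subst a
      refine mem_supp.2 fun e => sq 1 (by ring) ?_
      simp only [Pi.sub_apply, Pi.smul_apply, smul_eq_mul] at e
      field_simp at e
      linear_combination c k * e + (d k * c k + d j * c j) * ci
    · by_cases b : k = j
      · subst b
        refine mem_supp.2 fun e => sq 1 (by ring) ?_
        simp only [Pi.sub_apply, Pi.smul_apply, smul_eq_mul] at e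
        field_simp at e
        linear_combination -c k * e - (d i * c i + d k * c k) * cj
      · exact sub_supp ht (mem_sdiff.2 ⟨h ▸ mem_univ k, by rw [hi]; simp [a, b]⟩)
  have c5 := S.card he
  rw [this, card_univ, Fintype.card_fin] at c5
  omega

/-- The vector with ones outside `m`. -/
def full (F : Type*) [Field F] (m : Fin 5) : Fin 5 → F := fun i => if i = m then 0 else 1

theorem supp_full (m : Fin 5) : supp (full F m) = univ.erase m := by
  ext i; simp [mem_supp, full]

theorem Sys.full_mem (S : Sys C) {c : Fin 5 → F} (hc : c ∈ C) {m : Fin 5}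
    (h : supp c = univ.erase m) : full F m ∈ C := by
  have h4 : (supp c).card = 4 := by rw [h]; simp
  have c1 : ∀ i ∈ supp c, c i ^ 2 = 1 := by
    rcases S.typ c hc with t | t | t
    · omega
    · exact t.2
    · omega
  refine S.sq_mem hc fun i => ?_
  by_cases e : i = m
  · rw [not_mem_supp.1 (by rw [h]; simp [e] : i ∉ supp c)]; simp [full, e]
  · rw [c1 i (by rw [h]; simp [e])]; simp [full, e]

theorem sum_full (m n j : Fin 5) (hmn : m ≠ n) (hj : j ≠ m) (hj' : j ≠ n) :
    ∑ i, Function.update (full F n) j (-full F n j) i * full F m i = 1 := by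
  fin_cases m <;> fin_cases n <;> fin_cases j <;>
    first | exact absurd rfl hmn | exact absurd rfl hj | exact absurd rfl hj' |
      simp [Fin.sum_univ_five, full]

/-- Two different supports of size four. -/
theorem Sys.four_four (S : Sys C) {m n : Fin 5} (hm : full F m ∈ C) (hn : full F n ∈ C)
    (hmn : m ≠ n) : (3 : F) = 0 ∧ ∀ j, full F j ∈ C := by
  have t2 := S.two
  have key : ∀ j, j ≠ m → j ≠ n → (3 : F) = 0 ∧ full F j ∈ C := fun j hj hj' => by
    have he := S.refl _ hm _ (S.sign _ hn j) (1 / 2) (by rw [sum_full m n j hmn hj hj']; field_simp)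
    have a : ∀ k, k ≠ j → k ∈ supp (Function.update (full F n) j (-full F n j) -
        (1 / 2 : F) • full F m) := fun k hk => by
      rw [mem_supp]
      simp only [Pi.sub_apply, Pi.smul_apply, smul_eq_mul, Function.update_of_ne hk, full]
      by_cases a : k = m
      · simp [a, hmn]
      · by_cases b : k = n
        · simp [b, hmn.symm, t2]
        · simp only [a, b, if_false]
          intro e
          field_simp at e
          exact one_ne_zero (α := F) (by linear_combination e)
    have b : j ∉ supp (Function.update (full F n) j (-full F n j) - (1 / 2 : F) • full F m) := by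
      intro b
      have c5 := S.card he
      rw [eq_univ_of_forall (fun k => (eq_or_ne k j).elim (fun e => by rw [e]; exact b) (a k)),
        card_univ, Fintype.card_fin] at c5
      omega
    refine ⟨?_, S.full_mem he ?_⟩
    · rw [not_mem_supp] at b
      simp only [Pi.sub_apply, Pi.smul_apply, smul_eq_mul, Function.update_self, full, hj, hj',
        if_false] at b
      field_simp at b
      linear_combination -b
    · ext k
      by_cases e : k = j
      · rw [e]; exact iff_of_false b (by simp)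
      · exact iff_of_true (a k e) (by simp [e])
  obtain ⟨j, hj, hj'⟩ := (by decide : ∀ m n : Fin 5, ∃ j, j ≠ m ∧ j ≠ n) m n
  refine ⟨(key j hj hj').1, fun k => ?_⟩
  by_cases a : k = m
  · exact a ▸ hm
  · by_cases b : k = n
    · exact b ▸ hn
    · exact (key k a b).2

theorem eq_erase (A : Finset (Fin 5)) (h : A.card = 4) : ∃ m, A = univ.erase m := by
  revert A; decide

theorem comb1 (A B : Finset (Fin 5)) (hA : A.card = 3) (hB : B.card = 3) :
    A = B ∨ (A ∩ B).card = 2 ∨ ((A ∩ B).card = 1 ∧ (A ∪ B).card = 5) := by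
  have := card_union_add_card_inter A B
  have c5 : (A ∪ B).card ≤ 5 := (card_le_univ _).trans (by simp)
  have c3 : (A ∩ B).card ≤ 3 := hA ▸ card_le_card inter_subset_left
  by_cases e : (A ∩ B).card = 3
  · left
    rw [← eq_of_subset_of_card_le (inter_subset_left (s₁ := A) (s₂ := B)) (by omega)]
    exact eq_of_subset_of_card_le inter_subset_right (by omega)
  · omega

theorem comb2 : ∀ A : Finset (Fin 5), A.card = 3 → ∀ B : Finset (Fin 5), B.card = 3 →
    (A ∩ B).card = 2 → ∀ E : Finset (Fin 5), E.card = 3 → ¬ E ⊆ A ∪ B → (E ∩ A).card = 2 →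
    (E ∩ B).card = 2 → ∀ G : Finset (Fin 5), G.card = 1 ∨ G.card = 3 → (A ∪ B) \ (A ∩ B) ⊆ G →
    G ⊆ A ∪ B → G.card = 3 ∧ G ≠ E ∧ (G ∩ E).card ≠ 2 := by decide +kernel

theorem Sys.main (S : Sys C) :
    (3 : F) = 0 ∧ (∀ j, full F j ∈ C) ∧ ∀ c ∈ C, (supp c).card ≠ 3 := by
  suffices h : ∃ m n, m ≠ n ∧ full F m ∈ C ∧ full F n ∈ C by
    obtain ⟨m, n, hmn, hm, hn⟩ := h
    obtain ⟨h3, h⟩ := S.four_four hm hn hmn
    refine ⟨h3, h, fun c hc e => ?_⟩
    obtain ⟨j, hj⟩ := card_pos.1 (by omega : 0 < (supp c).card)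
    refine S.four_three (h j) hc (by rw [supp_full]; simp) e (eq_univ_of_forall fun k => ?_)
    rw [supp_full]
    by_cases a : k = j <;> simp [a, hj]
  by_cases h4 : ∃ c ∈ C, (supp c).card = 4
  · obtain ⟨c, hc, h4⟩ := h4
    obtain ⟨m, hm⟩ := eq_erase _ h4
    obtain ⟨d, hd, dm, d1⟩ := S.conn m
    rcases S.card hd with e | e | e
    · exact absurd e d1
    · obtain ⟨n, hn⟩ := eq_erase _ e
      refine ⟨m, n, ?_, S.full_mem hc hm, S.full_mem hd hn⟩
      rintro rfl
      simpa [hn] using mem_supp.2 dm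
    · refine (S.four_three hc hd h4 e (eq_univ_of_forall fun k => ?_)).elim
      rw [hm]
      by_cases a : k = m <;> simp [a, mem_supp.2 dm]
  exfalso
  push Not at h4
  have ex : ∀ m, ∃ c ∈ C, m ∈ supp c ∧ (supp c).card = 3 := fun m => by
    obtain ⟨d, hd, dm, d1⟩ := S.conn m
    have := S.card hd
    have := h4 d hd
    exact ⟨d, hd, mem_supp.2 dm, by omega⟩
  have two : ∀ c ∈ C, ∀ d ∈ C, (supp c).card = 3 → (supp d).card = 3 → supp c ≠ supp d →
      (supp c ∩ supp d).card = 2 := fun c hc d hd c3 d3 ne => by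
    rcases comb1 _ _ c3 d3 with e | e | e
    · exact absurd e ne
    · exact e
    · obtain ⟨g, hg, eg⟩ := S.one hc hd e.1
      have := S.card hg
      rw [eg] at this
      omega
  have out : ∀ A : Finset (Fin 5), A.card < 5 → ∃ m, m ∉ A := fun A hA => by
    by_contra hn
    push Not at hn
    rw [eq_univ_of_forall hn, card_univ, Fintype.card_fin] at hA
    omega
  obtain ⟨a, ha, -, a3⟩ := ex 0
  obtain ⟨m, hm⟩ := out (supp a) (by omega)
  obtain ⟨b, hb, bm, b3⟩ := ex m
  have ab := two a ha b hb a3 b3 fun e => hm (e ▸ bm)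
  obtain ⟨n, hn⟩ := out (supp a ∪ supp b) (by
    have := card_union_add_card_inter (supp a) (supp b); omega)
  obtain ⟨e, he, en, e3⟩ := ex n
  obtain ⟨g, hg, g1, g2⟩ := S.pair ha hb ab
  have := comb2 _ a3 _ b3 ab _ e3 (fun h => hn (h en))
    (two e he a ha e3 a3 fun h => hn (mem_union_left _ (h ▸ en)))
    (two e he b hb e3 b3 fun h => hn (mem_union_right _ (h ▸ en))) _
    (by have := S.card hg; have := h4 g hg; omega) g1 g2
  exact this.2.2 (two g hg e he this.1 e3 this.2.1)

theorem sys (h : Tame D) (hn : NoSq2 D) (hc : Conn D) {x : Fin 5 → M4 F} (hx : Orth D x) :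
    Sys {c | ∃ y ∈ D, (fun i => bW y (x i)) = c} where
  two := h.two
  ne2 := by rintro _ ⟨y, hy, rfl⟩ i; exact hn y hy _ (hx.1 i)
  typ := by
    rintro _ ⟨y, hy, rfl⟩
    have hs : ∑ i, bW y (x i) ^ 2 = 4 := by
      simp only [sq]
      rw [← hx.parseval h.toRS (h.mem y hy), h.bW_self hy]; norm_num
    by_cases h1 : (supp fun i => bW y (x i)).card = 1
    · exact typ_of_card_one hs h1
    refine typ_of h.two hs (fun i => ?_) fun i j hij =>
      h.tau_pair hn (hx.1 i) hy (hx.1 j) (hx.2 i j hij)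
    rcases h.vals y hy _ (hx.1 i) with e | e | e | e | e
    · exact Or.inl e
    · exact Or.inr (Or.inl e)
    · exact absurd e (hn y hy _ (hx.1 i))
    · by_cases h3 : (3 : F) = 0
      · exact Or.inr (Or.inl (by linear_combination e + h3))
      · refine absurd (card_eq_one.2 ⟨i, ?_⟩) h1
        ext j
        rw [mem_supp, mem_singleton]
        refine ⟨fun h0 => ?_, ?_⟩
        · by_contra hj
          rcases h.eq_of_four h3 hy (hx.1 i) e with rfl | rfl
          · exact h0 (hx.2 i j (Ne.symm hj))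
          · exact h0 (by rw [bW_neg_left, hx.2 i j (Ne.symm hj), neg_zero])
        · rintro rfl h0
          exact four_ne h.two (by rw [← e, h0]; ring)
    · exact Or.inr (Or.inr e)
  refl := by
    rintro _ ⟨y, hy, rfl⟩ _ ⟨w, hw, rfl⟩ t ht
    rw [← hx.parseval h.toRS (h.mem w hw)] at ht
    refine ⟨_, h.refl y hy w hw, funext fun i => ?_⟩
    simp [bW_sub_left, bW_smul_left, mul_left_cancel₀ h.two ht]
  sign := by
    rintro _ ⟨y, hy, rfl⟩ i
    refine ⟨_, h.refl _ (hx.1 i) y hy, funext fun j => ?_⟩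
    rw [bW_sub_left, bW_smul_left]
    by_cases e : j = i
    · rw [e, Function.update_self, h.bW_self (hx.1 i)]; ring
    · rw [Function.update_of_ne e, hx.2 i j (Ne.symm e), mul_zero, sub_zero]
  conn m := by
    by_contra hcon
    push Not at hcon
    obtain ⟨j, hj⟩ := exists_ne m
    have := hc (LinearMap.ker (bL F (x m))) (fun y hy v hv => ?_) ⟨_, hx.1 j, hx.2 m j hj.symm⟩
      (h.mem _ (hx.1 m))
    · exact h.two ((h.bW_self (hx.1 m)).symm.trans this)
    · by_cases h0 : bW y (x m) = 0
      · exact Submodule.smul_mem _ _ (by rw [bW_comm] at h0; exact h0)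
      · have h1 := hcon _ ⟨y, hy, rfl⟩ h0
        have hv' : bW v (x m) = 0 := by rw [bW_comm]; exact hv
        have : bW v y = 0 := by
          refine mul_left_cancel₀ h.two ?_
          rw [bW_comm, hx.parseval h.toRS (h.mem y hy), mul_zero]
          refine sum_eq_zero fun i _ => ?_
          by_cases e : i = m
          · rw [e, hv', mul_zero]
          · by_contra h2
            exact e (card_le_one.1 h1.le i (mem_supp.2 (left_ne_zero_of_mul h2)) m (mem_supp.2 h0))
        rw [this, zero_smul]; exact zero_mem _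

end FrmA

open FrmA

theorem Tame.frame (h : Tame D) (hn : NoSq2 D) (hc : Conn D) {x : Fin 5 → M4 F} (hx : Orth D x) :
    (3 : F) = 0 ∧ (∀ y ∈ D, ∀ i, bW y (x i) = 0 ∨ bW y (x i) = 1 ∨ bW y (x i) = -1) ∧
      ∀ (i : Fin 5) (ε : Fin 5 → F), ε i = 0 → (∀ j, j ≠ i → ε j = 1 ∨ ε j = -1) →
        ∑ j, ε j • x j ∈ D := by
  have S := sys h hn hc hx
  obtain ⟨h3, hf, hn3⟩ := S.main
  refine ⟨h3, fun y hy i => ?_, fun i ε h0 h1 => ?_⟩
  · refine or_iff_not_imp_left.2 fun h0 => sq_eq_one_iff.1 ?_
    have hi : i ∈ supp fun i => bW y (x i) := mem_supp.2 h0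
    rcases S.typ _ ⟨y, hy, rfl⟩ with t | t | t
    · linear_combination t.2 i hi + h3
    · exact t.2 i hi
    · exact absurd t.1 (hn3 _ ⟨y, hy, rfl⟩)
  · obtain ⟨y, hy, e⟩ := S.sq_mem (d := fun j => 2 * ε j) (hf i) fun j => by
      by_cases e : j = i
      · simp [full, e, h0]
      · rcases h1 j e with a | a <;> simp only [full, e, a, if_false] <;> linear_combination h3
    have t := h.two
    convert hy using 1
    rw [hx.expand h.toRS (h.mem y hy)]
    refine Finset.sum_congr rfl fun j _ => ?_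
    rw [show bW y (x j) = 2 * ε j from congrFun e j]
    congr 1
    field_simp

end Cfsg.Agent.DIM4
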