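import Cfsg.Agent.DIM4.Stab

/-! The explicit subgroup `SL₂(7)` of `Sp₄(7)` and the root system of type `A₆` it preserves. -/

set_option autoImplicit false

namespace Cfsg.Agent.DIM4.L27

open Matrix

instance factSeven : Fact (Nat.Prime 7) := ⟨by norm_num⟩

/-- The field with seven elements. -/
abbrev F7 : Type := ZMod 7

/-- A regular unipotent element. -/
def U0 : M4 F7 := fromBlocks !![1, 0; 1, 1] !![0, 0; 0, 0] !![6, 4; 3, 6] !![1, 6; 0, 1]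
/-- The inverse of `U0`. -/
def U0i : M4 F7 := fromBlocks !![1, 0; 6, 1] !![0, 0; 0, 0] !![1, 4; 3, 1] !![1, 1; 0, 1]
/-- The logarithm of `U0`. -/
def n0 : M4 F7 := fromBlocks !![0, 0; 1, 0] !![0, 0; 0, 0] !![0, 0; 0, 6] !![0, 6; 0, 0]
/-- The Weyl element. -/
def W0 : M4 F7 := fromBlocks !![0, 0; 0, 0] !![1, 0; 0, 5] !![6, 0; 0, 4] !![0, 0; 0, 0]
/-- A three-cycle. -/
def Z0 : M4 F7 := fromBlocks !![1, 0; 0, 4] !![5, 0; 0, 0] !![5, 0; 0, 0] !![5, 0; 0, 2]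
/-- The inverse of `Z0`. -/
def Z0i : M4 F7 := fromBlocks !![5, 0; 0, 2] !![2, 0; 0, 0] !![2, 0; 0, 0] !![1, 0; 0, 4]

/-- `U0` as a unit. -/
def u0 : G4 F7 := ⟨U0, U0i, by decide +kernel, by decide +kernel⟩
/-- `W0` as a unit. -/
def w0 : G4 F7 := ⟨W0, -W0, by decide +kernel, by decide +kernel⟩
/-- `Z0` as a unit. -/
def z0 : G4 F7 := ⟨Z0, Z0i, by decide +kernel, by decide +kernel⟩

/-- The matrices `A` with `A n0 = k n0 A`. -/
def cm (k a b c d : F7) : M4 F7 :=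
  fromBlocks !![a, 0; b, k * a] !![0, 0; 0, 0] !![c, -(k * d); d, -(k * b)]
    !![k ^ 3 * a, -(k ^ 2 * b); 0, k ^ 2 * a]

theorem exists_cm {A : M4 F7} {k : F7} (h : A * n0 = k • (n0 * A)) :
    ∃ a b c d, A = cm k a b c d := by
  have e := fun i j => congrFun (congrFun h i) j
  have a1 := e (.inl 0) (.inl 0)
  have a2 := e (.inl 1) (.inl 0)
  have a3 := e (.inr 0) (.inl 0)
  have a4 := e (.inr 1) (.inl 0)
  have b1 := e (.inl 0) (.inl 1)
  have b2 := e (.inl 1) (.inl 1)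
  have b3 := e (.inr 0) (.inl 1)
  have b4 := e (.inr 1) (.inl 1)
  have c1 := e (.inl 0) (.inr 1)
  have c2 := e (.inl 1) (.inr 1)
  have c3 := e (.inr 0) (.inr 1)
  have c4 := e (.inr 1) (.inr 1)
  have h6 : (6 : F7) = -1 := by decide
  simp [n0, Matrix.mul_apply, Fintype.sum_sum_type, h6] at a1 a2 a3 a4 b1 b2 b3 b4 c1 c2 c3 c4
  refine ⟨A (.inl 0) (.inl 0), A (.inl 1) (.inl 0), A (.inr 0) (.inl 0), A (.inr 1) (.inl 0), ?_⟩
  ext (i | i) (j | j) <;> fin_cases i <;> fin_cases j <;> simp [cm] <;> grind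

theorem U0_pow (m : ℕ) : U0 ^ m = cm 1 1 m (6 * (m : F7) ^ 3) (3 * (m : F7) ^ 2) := by
  have h : ∀ k : F7, cm 1 1 k (6 * k ^ 3) (3 * k ^ 2) * U0 =
      cm 1 1 (k + 1) (6 * (k + 1) ^ 3) (3 * (k + 1) ^ 2) := by decide +kernel
  induction m with
  | zero => rw [pow_zero, Nat.cast_zero]; decide +kernel
  | succ m ih => rw [pow_succ, ih, h, Nat.cast_succ]

theorem log_pow (m : ℕ) : (U0 ^ m - 1) + (3 : F7) • ((U0 ^ m - 1) * (U0 ^ m - 1)) +
    (5 : F7) • ((U0 ^ m - 1) * (U0 ^ m - 1) * (U0 ^ m - 1)) = (m : F7) • n0 := by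
  rw [U0_pow]
  generalize (m : F7) = k
  revert k
  decide +kernel

theorem exists_cm_of {A : M4 F7} {k : ℕ} (h : A * U0 = U0 ^ k * A) :
    ∃ a b c d, A = cm k a b c d := by
  have h1 := log_pow k
  have h2 := log_pow 1
  simp only [pow_one, Nat.cast_one, one_smul] at h2
  have h3 : A * (U0 - 1) = (U0 ^ k - 1) * A := by
    rw [Matrix.mul_sub, Matrix.sub_mul, h, Matrix.mul_one, Matrix.one_mul]
  refine exists_cm ?_
  rw [← Matrix.smul_mul, ← h1, ← h2]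
  generalize U0 - 1 = N, U0 ^ k - 1 = M at h3
  have h4 : ∀ X, A * (N * X) = M * (A * X) := fun X => by
    rw [← Matrix.mul_assoc, h3, Matrix.mul_assoc]
  simp only [Matrix.mul_add, Matrix.add_mul, Matrix.mul_smul, Matrix.smul_mul, Matrix.mul_assoc,
    h3, h4]

/-- Seven points whose differences form the root system. -/
def pt : Fin 7 → Fin 5 → F7 :=
  ![![0, 0, 0, 0, 0], ![0, 1, 2, 1, 3], ![0, 3, 3, 5, 2], ![2, 6, 4, 2, 4], ![4, 0, 3, 4, 6],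
    ![4, 1, 0, 3, 1], ![4, 3, 2, 6, 5]]

/-- The root system. -/
def R0 : Set (M4 F7) := {v | ∃ i j, i ≠ j ∧ cl (pt i - pt j) = v}

/-- `A` permutes the points by `σ`. -/
def Pres (A : M4 F7) (σ : Fin 7 → Fin 7) : Prop :=
  (∀ i j, σ i = σ j → i = j) ∧ ∀ i, A * cl (pt i) = cl (pt (σ i) - pt (σ 0)) * A

instance decPres (A : M4 F7) (σ : Fin 7 → Fin 7) : Decidable (Pres A σ) := by
  unfold Pres; infer_instance

theorem Pres.mem {g : G4 F7} {σ : Fin 7 → Fin 7} (h : Pres g σ) :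
    ∀ v ∈ R0, (g : M4 F7) * v * ((g⁻¹ : G4 F7) : M4 F7) ∈ R0 := by
  rintro _ ⟨i, j, hij, rfl⟩
  refine ⟨σ i, σ j, fun e => hij (h.1 i j e), ?_⟩
  rw [map_sub cl (pt i), Matrix.mul_sub, h.2, h.2, ← Matrix.sub_mul, Matrix.mul_assoc,
    Units.mul_inv, Matrix.mul_one, ← map_sub, sub_sub_sub_cancel_right]

/-- An orbit of vectors. -/
def C0 : Set (I4 → F7) := {v | (∃ ε : F7, v = Sum.elim ![0, 0] ![ε, 0] ∧ ε * ε = 1) ∨
  ∃ ε k : F7, v = ε • Sum.elim ![1, k] ![6 * k ^ 3, 3 * k ^ 2] ∧ ε * ε = 1}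

instance decC0 (v : I4 → F7) : Decidable (v ∈ C0) := by
  unfold C0; rw [Set.mem_setOf_eq]; infer_instance

theorem C0_mem {g : G4 F7} (hg : g ∈ Subgroup.closure {u0, w0}) :
    ∀ v ∈ C0, (g : M4 F7) *ᵥ v ∈ C0 := by
  have key : ∀ A : M4 F7, (∀ ε : F7, ε * ε = 1 → A *ᵥ Sum.elim ![0, 0] ![ε, 0] ∈ C0 ∧
      ∀ k : F7, A *ᵥ (ε • Sum.elim ![1, k] ![6 * k ^ 3, 3 * k ^ 2]) ∈ C0) →
      ∀ v ∈ C0, A *ᵥ v ∈ C0 := by
    rintro A h _ (⟨ε, rfl, e⟩ | ⟨ε, k, rfl, e⟩)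
    exacts [(h ε e).1, (h ε e).2 k]
  let S : Submonoid (G4 F7) :=
    { carrier := {g | ∀ v ∈ C0, (g : M4 F7) *ᵥ v ∈ C0}
      one_mem' := fun v hv => by simpa using hv
      mul_mem' := fun {a b} ha hb v hv => by
        rw [Units.val_mul, ← mulVec_mulVec]; exact ha _ (hb v hv) }
  have inv : ∀ {g}, g ∈ S → g⁻¹ ∈ S := fun {g} hg => by
    have := S.pow_mem hg (orderOf g - 1)
    rwa [show g ^ (orderOf g - 1) = g⁻¹ from eq_inv_of_mul_eq_one_left (by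
      rw [← pow_succ, Nat.sub_add_cancel (orderOf_pos g), pow_orderOf_eq_one])] at this
  refine (Subgroup.closure_le { S with inv_mem' := inv }).2 ?_ hg
  rintro _ (rfl | rfl)
  · exact key U0 (by decide +kernel)
  · exact key W0 (by decide +kernel)

theorem u0_sp : u0 ∈ Cfsg.spGL 2 F7 := mem_spGL_iff.2 (by decide +kernel)
theorem w0_sp : w0 ∈ Cfsg.spGL 2 F7 := mem_spGL_iff.2 (by decide +kernel)
theorem z0_sp : z0 ∈ Cfsg.spGL 2 F7 := mem_spGL_iff.2 (by decide +kernel)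

theorem not_stab : ∃ g ∈ Cfsg.spGL 2 F7, ∃ v ∈ R0,
    (g : M4 F7) * v * ((g⁻¹ : G4 F7) : M4 F7) ∉ R0 := by
  have h2 : (2 : F7) ≠ 0 := by decide
  refine exists_not_stab h2 (by rintro _ ⟨i, j, -, rfl⟩; exact cl_mem _) (fun v hv => ?_) ?_
  · obtain ⟨x, rfl⟩ := exists_cl h2 hv
    have m : ∀ i : Fin 7, i ≠ 0 → cl (pt i) ∈ Submodule.span F7 R0 := fun i hi =>
      Submodule.subset_span ⟨i, 0, hi, by
        rw [show pt 0 = 0 by decide +kernel, sub_zero]⟩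
    have : x = (x 0 + 2 * x 2 + 5 * x 3 + 2 * x 4) • pt 1 + (x 0 + 6 * x 1 + 4 * x 3 + 6 * x 4) • pt 2 +
        (4 * x 0 + 5 * x 1 + 4 * x 2 + 6 * x 3 + 3 * x 4) • pt 3 +
        (6 * x 1 + 3 * x 2 + x 3 + 5 * x 4) • pt 4 + (2 * x 1 + 2 * x 2 + 3 * x 3 + 4 * x 4) • pt 5 := by
      ext i; fin_cases i <;> simp [pt] <;> grind
    rw [this]
    simp only [map_add, map_smul]
    refine add_mem (add_mem (add_mem (add_mem ?_ ?_) ?_) ?_) ?_ <;>
      exact Submodule.smul_mem _ _ (m _ (by decide))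
  · rintro _ ⟨i, j, hij, rfl⟩ _ ⟨k, l, hkl, rfl⟩ h
    rw [bW_cl h2, bW_cl h2] at h
    have : pt k - pt l = pt i - pt j := by
      revert i j k l
      decide +kernel
    exact Or.inl (by rw [this])

theorem explicit {H : Subgroup (G4 F7)} (hmax : Cfsg.Geo.IsMaximalIn (Cfsg.spGL 2 F7) H)
    (nrm : ∀ h ∈ H, ∀ x ∈ Subgroup.closure {u0, w0}, h * x * h⁻¹ ∈ Subgroup.closure {u0, w0})
    (hle : Subgroup.closure {u0, w0} ≤ H)
    (syl : ∀ h ∈ H, ∃ p ∈ Subgroup.closure {u0, w0}, ∃ k : ℕ, p * h * u0 * (p * h)⁻¹ = u0 ^ k) :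
    False := by
  obtain ⟨M, hM⟩ := exists_stab R0
  have mu : u0 ∈ M := (hM _).2 ⟨u0_sp, Pres.mem (σ := ![3, 5, 0, 4, 6, 2, 1]) (by decide +kernel)⟩
  have mw : w0 ∈ M := (hM _).2 ⟨w0_sp, Pres.mem (σ := ![1, 0, 2, 3, 6, 5, 4]) (by decide +kernel)⟩
  have mz : z0 ∈ M := (hM _).2 ⟨z0_sp, Pres.mem (σ := ![2, 0, 1, 3, 4, 5, 6]) (by decide +kernel)⟩
  have PM : Subgroup.closure {u0, w0} ≤ M := (Subgroup.closure_le M).2 (by
    rintro _ (rfl | rfl)
    exacts [mu, mw])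
  have su : u0 ∈ Subgroup.closure {u0, w0} := Subgroup.subset_closure (by simp)
  have sw : w0 ∈ Subgroup.closure {u0, w0} := Subgroup.subset_closure (by simp)
  have e3 : (Sum.elim ![0, 0] ![1, 0] : I4 → F7) ∈ C0 := by decide +kernel
  have key : ∀ h ∈ H, ∀ k : ℕ, h * u0 * h⁻¹ = u0 ^ k → h ∈ M := by
    intro h hh k hk
    have hsp := hmax.1.le hh
    rw [mul_inv_eq_iff_eq_mul] at hk
    obtain ⟨a, b, c, d, e⟩ := exists_cm_of (A := h) (k := k) (by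
      simpa [u0] using congrArg Units.val hk)
    have s1 : a * (k : F7) ^ 3 * a = 1 := by
      have := congrFun (congrFun (mem_spGL_iff.1 hsp) (.inl 0)) (.inl 0)
      rw [e, cm, adj_fromBlocks] at this
      simpa [Matrix.mul_apply, Fintype.sum_sum_type, mul_comm, mul_left_comm] using this
    have m := C0_mem (nrm h hh w0 sw) _ e3
    have e1 : ((h⁻¹ : G4 F7) : M4 F7) *ᵥ Sum.elim ![0, 0] ![1, 0] = a • Sum.elim ![0, 0] ![1, 0] := by
      rw [← adj_coe hsp, e, cm, adj_fromBlocks]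
      ext (i | i) <;> fin_cases i <;> simp [mulVec, dotProduct, Fintype.sum_sum_type]
    have e2 : (h : M4 F7) *ᵥ ((w0 : M4 F7) *ᵥ Sum.elim ![0, 0] ![1, 0]) =
        Sum.elim ![a, b] ![c, d] := by
      rw [e]
      ext (i | i) <;> fin_cases i <;>
        simp [w0, W0, cm, mulVec, dotProduct, Fintype.sum_sum_type]
    rw [Units.val_mul, Units.val_mul, ← mulVec_mulVec, ← mulVec_mulVec, e1, mulVec_smul,
      mulVec_smul, e2] at m
    have a0 : a ≠ 0 := by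
      rintro rfl
      simp at s1
    rcases m with ⟨ε, m, -⟩ | ⟨ε, j, m, -⟩
    · simpa [a0] using congrFun m (.inl 0)
    have m0 := congrFun m (.inl 0)
    have m1 := congrFun m (.inl 1)
    have m2 := congrFun m (.inr 0)
    have m3 := congrFun m (.inr 1)
    simp only [Pi.smul_apply, Sum.elim_inl, Sum.elim_inr, cons_val, smul_eq_mul, mul_one] at m0 m1 m2 m3
    subst m0
    rw [mul_assoc, mul_right_inj' a0] at m1 m2 m3
    obtain ⟨j, rfl⟩ := ZMod.natCast_zmod_surjective j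
    have e4 : (h : M4 F7) = U0 ^ j * cm k a 0 0 0 := by
      rw [e, U0_pow, m1, m2, m3]
      ext (i | i) (j | j) <;> fin_cases i <;> fin_cases j <;>
        simp [cm, Matrix.mul_apply, Fintype.sum_sum_type] <;> ring
    have e5 : (((u0 ^ j)⁻¹ * h : G4 F7) : M4 F7) = cm k a 0 0 0 := by
      rw [Units.val_mul, e4, show U0 ^ j = ((u0 ^ j : G4 F7) : M4 F7) from
        (Units.val_pow_eq_pow_val u0 j).symm, ← Matrix.mul_assoc, Units.inv_mul, Matrix.one_mul]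
    have fin : ∀ k a : F7, a * k ^ 3 * a = 1 → ∃ s : Fin 3, Pres (cm k a 0 0 0)
        (![![0, 1, 2, 3, 4, 5, 6], ![2, 0, 1, 3, 6, 4, 5], ![1, 2, 0, 3, 5, 6, 4]] s) := by
      decide +kernel
    obtain ⟨s, hs⟩ := fin k a s1
    have := M.mul_mem (M.pow_mem mu j) ((hM _).2
      ⟨mul_mem (inv_mem (pow_mem u0_sp j)) hsp, Pres.mem (e5 ▸ hs)⟩)
    rwa [mul_inv_cancel_left] at this
  have HM : H ≤ M := fun h hh => by
    obtain ⟨p, hp, k, hk⟩ := syl h hh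
    have := M.mul_mem (M.inv_mem (PM hp)) (key _ (H.mul_mem (hle hp) hh) k hk)
    rwa [inv_mul_cancel_left] at this
  rcases hmax.2 M HM (fun k hk => ((hM k).1 hk).1) with e | e
  · have := C0_mem (nrm z0 (e ▸ mz) u0 su) _ e3
    revert this
    decide +kernel
  · obtain ⟨k, hk, v, hv, hn⟩ := not_stab
    exact hn (((hM k).1 (e ▸ hk)).2 v hv)

end Cfsg.Agent.DIM4.L27
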