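import Cfsg.Agent.DIM4.Defs2

/-! The stabilisers of a pair of isotropic planes and of a unitary structure as `JStab`. -/

set_option autoImplicit false

namespace Cfsg.Agent.DIM4

open Matrix

open Cfsg.Geo

variable {F : Type*} [Field F]

theorem mat_ext_mulVec {A B : M4 F} (h : ∀ u, A *ᵥ u = B *ᵥ u) : A = B :=
  Matrix.toLin'.injective (LinearMap.ext fun u => by rw [toLin'_apply, toLin'_apply, h])

theorem mem_JStab {J0 : M4 F} {g : G4 F} : g ∈ JStab J0 ↔
    g ∈ Cfsg.spGL 2 F ∧ ((g : M4 F) * J0 = J0 * g ∨ (g : M4 F) * J0 = -(J0 * g)) := Iff.rfl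

theorem map_eq_of_maps (g : G4 F) {A B : Submodule F (I4 → F)}
    (h : ∀ u, u ∈ A ↔ (g : M4 F) *ᵥ u ∈ B) : A.map (Matrix.toLin' (g : M4 F)) = B := by
  ext v
  refine ⟨by rintro ⟨u, hu, rfl⟩; exact (h u).1 hu, fun hv => ⟨((g⁻¹ : G4 F) : M4 F) *ᵥ v, ?_, ?_⟩⟩
  · change _ ∈ A
    rwa [h, mulVec_mulVec, Units.mul_inv, one_mulVec]
  · rw [toLin'_apply, mulVec_mulVec, Units.mul_inv, one_mulVec]

theorem pair_eq_jstab (h2 : (2 : F) ≠ 0) (D : Fin 2 → Submodule F (I4 → F))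
    (hD : IsMDecomposition 2 D) (ht : ∀ i, IsTotallySingularFor (Cfsg.sympForm 2 F) (D i)) :
    ∃ J0 : M4 F, adj J0 = -J0 ∧ J0 * J0 = (1 : F) • (1 : M4 F) ∧
      decompositionStabilizer D ⊓ Cfsg.spGL 2 F = JStab J0 := by
  have hc : IsCompl (D 0) (D 1) := by
    refine ⟨hD.indep.pairwiseDisjoint (by decide : (0 : Fin 2) ≠ 1), codisjoint_iff.2 ?_⟩
    rw [← hD.iSup_eq_top]
    refine le_antisymm (sup_le (le_iSup D 0) (le_iSup D 1)) (iSup_le fun i => ?_)
    fin_cases i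
    exacts [le_sup_left, le_sup_right]
  have dec : ∀ u, ∃ a ∈ D 0, ∃ b ∈ D 1, a + b = u := fun u =>
    Submodule.mem_sup.1 (hc.sup_eq_top ▸ Submodule.mem_top)
  obtain ⟨J0, hJ⟩ : ∃ J0 : M4 F, ∀ a ∈ D 0, ∀ b ∈ D 1, J0 *ᵥ (a + b) = a - b := by
    refine ⟨LinearMap.toMatrix' (LinearMap.ofIsCompl hc (D 0).subtype (-(D 1).subtype)),
      fun a ha b hb => ?_⟩
    rw [LinearMap.toMatrix'_mulVec, map_add, LinearMap.ofIsCompl_apply_left hc ⟨a, ha⟩,
      LinearMap.ofIsCompl_apply_right hc ⟨b, hb⟩, sub_eq_add_neg]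
    rfl
  have z : ∀ b : I4 → F, -b = b → b = 0 := fun b h => smul_right_injective _ h2 (by
    change (2 : F) • b = (2 : F) • (0 : I4 → F)
    rw [two_smul, smul_zero]
    nth_rw 1 [← h]; exact neg_add_cancel b)
  have m0 : ∀ u, u ∈ D 0 ↔ J0 *ᵥ u = u := fun u => by
    refine ⟨fun h => by simpa using hJ u h 0 (zero_mem _), fun h => ?_⟩
    obtain ⟨a, ha, b, hb, rfl⟩ := dec u
    rw [hJ a ha b hb, sub_eq_add_neg, add_right_inj] at h
    rwa [z b h, add_zero]
  have m1 : ∀ u, u ∈ D 1 ↔ J0 *ᵥ u = -u := fun u => by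
    refine ⟨fun h => by simpa using hJ 0 (zero_mem _) u h, fun h => ?_⟩
    obtain ⟨a, ha, b, hb, rfl⟩ := dec u
    rw [hJ a ha b hb, sub_eq_add_neg, neg_add, add_left_inj] at h
    rwa [z a h.symm, zero_add]
  have inj : ∀ (g : G4 F) (u v : I4 → F), (g : M4 F) *ᵥ u = (g : M4 F) *ᵥ v ↔ u = v := fun g u v =>
    ⟨fun h => by
      have := congrArg (((g⁻¹ : G4 F) : M4 F) *ᵥ ·) h
      simpa only [mulVec_mulVec, Units.inv_mul, one_mulVec] using this, fun h => h ▸ rfl⟩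
  refine ⟨J0, eq_adj_of fun u v => ?_, mat_ext_mulVec fun u => ?_, Subgroup.ext fun g => ?_⟩
  · obtain ⟨a, ha, b, hb, rfl⟩ := dec u
    obtain ⟨a', ha', b', hb', rfl⟩ := dec v
    rw [neg_mulVec, hJ a ha b hb, hJ a' ha' b' hb', neg_sub]
    simp only [H27.sympForm_sub_left, H27.sympForm_add_left, H27.sympForm_sub_right,
      H27.sympForm_add_right, ht 0 a ha a' ha', ht 1 b hb b' hb']
    ring
  · obtain ⟨a, ha, b, hb, rfl⟩ := dec u
    rw [← mulVec_mulVec, hJ a ha b hb, sub_eq_add_neg, hJ a ha _ (neg_mem hb), one_smul, one_mulVec,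
      sub_neg_eq_add]
  · rw [Subgroup.mem_inf, mem_JStab, and_comm]
    refine and_congr_right fun _ => ⟨?_, ?_⟩
    · rintro ⟨σ, hσ⟩
      have hm : ∀ i, ∀ u ∈ D i, (g : M4 F) *ᵥ u ∈ D (σ i) := fun i u hu =>
        hσ i ▸ ⟨u, hu, rfl⟩
      have : (σ 0 = 0 ∧ σ 1 = 1) ∨ (σ 0 = 1 ∧ σ 1 = 0) := by clear hm hσ; revert σ; decide
      refine this.imp (fun ⟨e0, e1⟩ => mat_ext_mulVec fun u => ?_)
        fun ⟨e0, e1⟩ => mat_ext_mulVec fun u => ?_
      · obtain ⟨a, ha, b, hb, rfl⟩ := dec u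
        rw [← mulVec_mulVec, ← mulVec_mulVec, hJ a ha b hb, mulVec_add, mulVec_sub,
          hJ _ (e0 ▸ hm 0 a ha) _ (e1 ▸ hm 1 b hb)]
      · obtain ⟨a, ha, b, hb, rfl⟩ := dec u
        rw [neg_mulVec, ← mulVec_mulVec, ← mulVec_mulVec, hJ a ha b hb, mulVec_add, mulVec_sub,
          add_comm, hJ _ (e1 ▸ hm 1 b hb) _ (e0 ▸ hm 0 a ha), neg_sub]
    · rintro (h | h)
      · refine ⟨1, fun i => map_eq_of_maps g fun u => ?_⟩
        fin_cases i
        · change u ∈ D 0 ↔ _ ∈ D 0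
          rw [m0, m0, mulVec_mulVec, ← h, ← mulVec_mulVec, inj]
        · change u ∈ D 1 ↔ _ ∈ D 1
          rw [m1, m1, mulVec_mulVec, ← h, ← mulVec_mulVec, ← mulVec_neg, inj]
      · replace h : J0 * g = -((g : M4 F) * J0) := by rw [h, neg_neg]
        refine ⟨Equiv.swap 0 1, fun i => map_eq_of_maps g fun u => ?_⟩
        fin_cases i
        · change u ∈ D 0 ↔ _ ∈ D 1
          rw [m0, m1, mulVec_mulVec, h, neg_mulVec, neg_inj, ← mulVec_mulVec, inj]
        · change u ∈ D 1 ↔ _ ∈ D 0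
          rw [m1, m0, mulVec_mulVec, h, neg_mulVec, ← mulVec_mulVec, ← mulVec_neg, inj,
            neg_eq_iff_eq_neg]

theorem unit_eq_jstab (h2 : (2 : F) ≠ 0) (K : Subalgebra F (M4 F)) (hK : IsFieldSubalgebra 2 K)
    (ha : IsAdjointClosedFor (Cfsg.sympForm 2 F) K) (hs : ¬ IsSelfAdjointFor (Cfsg.sympForm 2 F) K) :
    ∃ (J0 : M4 F) (δ : F), adj J0 = -J0 ∧ δ ≠ 0 ∧ J0 * J0 = δ • (1 : M4 F) ∧
      subalgebraNormalizer K ⊓ Cfsg.spGL 2 F = JStab J0 := by
  obtain ⟨k, hk, hne⟩ : ∃ k ∈ K, adj k ≠ k := by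
    by_contra! h
    exact hs fun k hk u v => by rw [sympForm_adj, h k hk]
  obtain ⟨k', hk', e⟩ := ha k hk
  obtain rfl : adj k = k' := eq_adj_of e
  have hJ : k - adj k ∈ K := K.sub_mem hk hk'
  have J0 : k - adj k ≠ 0 := sub_ne_zero.2 hne.symm
  have aJ : adj (k - adj k) = -(k - adj k) := by rw [adj_sub, adj_adj, neg_sub]
  generalize k - adj k = J at hJ J0 aJ
  have skew : ∀ a b : F, adj (a • (1 : M4 F) + b • J) = -(a • (1 : M4 F) + b • J) → a = 0 := by
    intro a b h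
    rw [adj_add, adj_smul, adj_smul, adj_one, aJ] at h
    have : (2 * a) • (1 : M4 F) = 0 := by linear_combination (norm := module) h
    exact (mul_eq_zero.1 ((smul_eq_zero.1 this).resolve_right one_ne_zero)).resolve_left h2
  have self : ∀ a b : F, adj (a • (1 : M4 F) + b • J) = a • (1 : M4 F) + b • J → b = 0 := by
    intro a b h
    rw [adj_add, adj_smul, adj_smul, adj_one, aJ] at h
    have : (2 * b) • J = 0 := by linear_combination (norm := module) -h
    exact (mul_eq_zero.1 ((smul_eq_zero.1 this).resolve_right J0)).resolve_left h2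
  have li : LinearIndependent F ![(1 : M4 F), J] := LinearIndependent.pair_iff.2 fun a b h => by
    have := skew a b (by rw [h, adj_zero, neg_zero])
    exact ⟨this, self a b (by rw [h, adj_zero])⟩
  have mK : ∀ x, x ∈ K ↔ ∃ a b : F, a • (1 : M4 F) + b • J = x := fun x => by
    have : Submodule.span F (Set.range ![(1 : M4 F), J]) = Subalgebra.toSubmodule K :=
      Submodule.eq_of_le_of_finrank_eq (Submodule.span_le.2 (by
        rintro _ ⟨i, rfl⟩
        fin_cases i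
        exacts [K.one_mem, hJ])) (by
        rw [finrank_span_eq_card li, Fintype.card_fin]; exact hK.finrank_eq.symm)
    rw [← Submodule.mem_span_pair, ← Subalgebra.mem_toSubmodule, ← this, Matrix.range_cons,
      Matrix.range_cons, Matrix.range_empty, Set.union_empty, Set.singleton_union]
  obtain ⟨δ, γ, e⟩ := (mK _).1 (K.mul_mem hJ hJ)
  obtain rfl : γ = 0 := self δ γ (by rw [e, adj_mul, aJ, neg_mul_neg])
  rw [zero_smul, add_zero] at e
  have δ0 : δ ≠ 0 := by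
    rintro rfl
    obtain ⟨y, -, hy⟩ := hK.inv J hJ J0
    apply J0
    rw [← Matrix.one_mul J, ← mul_eq_one_comm.1 hy, Matrix.mul_assoc, ← e, zero_smul,
      Matrix.mul_zero]
  refine ⟨J, δ, aJ, δ0, e.symm, ?_⟩
  have cj : ∀ g ∈ JStab J, ∀ x ∈ K, (g : M4 F) * x * ((g⁻¹ : G4 F) : M4 F) ∈ K := by
    intro g hg x hx
    obtain ⟨a, b, rfl⟩ := (mK x).1 hx
    rw [Matrix.mul_add, Matrix.mul_smul, Matrix.mul_smul, Matrix.mul_one]
    rcases hg.2 with h | h <;>
      simp only [h, Matrix.add_mul, Matrix.smul_mul, Matrix.neg_mul, Matrix.mul_assoc,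
        Units.mul_inv, Matrix.mul_one]
    · exact hx
    · exact (mK _).2 ⟨a, -b, by rw [neg_smul, smul_neg]⟩
  ext g
  refine ⟨fun ⟨h1, hg⟩ => ⟨hg, ?_⟩, fun hg => ⟨fun x => ⟨cj g hg x, fun hx => ?_⟩, hg.1⟩⟩
  · obtain ⟨a, b, h⟩ := (mK _).1 ((h1 J).1 hJ)
    obtain rfl : a = 0 := skew a b (by
      rw [h, adj_mul, adj_mul, aJ, adj_coe hg, adj_coe (inv_mem hg), inv_inv]
      simp only [Matrix.neg_mul, Matrix.mul_neg, Matrix.mul_assoc])
    rw [zero_smul, zero_add] at h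
    have h3 : (b * b * δ) • (1 : M4 F) = δ • (1 : M4 F) := by
      have := conj_mul g J J
      rw [← h, ← e, Matrix.smul_mul, Matrix.mul_smul, ← e, Matrix.mul_smul, Matrix.mul_one,
        Matrix.smul_mul, Units.mul_inv, smul_smul, smul_smul] at this
      exact this
    have h4 : b * b = 1 := mul_right_cancel₀ δ0 (by
      rw [one_mul]; exact smul_left_injective F one_ne_zero h3)
    have h5 : (g : M4 F) * J = b • (J * g) := by
      rw [← Matrix.smul_mul, h, Matrix.mul_assoc, Units.inv_mul, Matrix.mul_one]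
    rcases mul_self_eq_one_iff.1 h4 with rfl | rfl
    · exact Or.inl (by rw [h5, one_smul])
    · exact Or.inr (by rw [h5, neg_one_smul])
  · have := cj _ (inv_mem hg) _ hx
    rwa [inv_inv, ← Matrix.mul_assoc, ← Matrix.mul_assoc, Units.inv_mul, Matrix.one_mul,
      Matrix.mul_assoc, Units.inv_mul, Matrix.mul_one] at this

end Cfsg.Agent.DIM4
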