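import Cfsg.Agent.DIM4.L27A
import Cfsg.Agent.DIM4.PlaneB

/-! The four-dimensional module of `SL₂(7)` with a regular unipotent element is unique. -/

set_option autoImplicit false

namespace Cfsg.Agent.DIM4.L27

open Matrix Polynomial

theorem pow_four_of_nilp {F : Type*} [Field F] {N : M4 F} (h : IsNilpotent N) : N ^ 4 = 0 := by
  have h1 := (Matrix.isNilpotent_charpoly_sub_pow_of_isNilpotent h).eq_zero
  have h2 := Matrix.aeval_self_charpoly N
  rw [sub_eq_zero.1 h1] at h2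
  simpa using h2

theorem cyc {u : M4 F7} (h4 : (u - 1) ^ 4 = 0) {x : I4 → F7} (hx : (u - 1) ^ 3 *ᵥ x ≠ 0) :
    ∃ g : G4 F7, u * g = g * U0 ∧ (g : M4 F7) *ᵥ Sum.elim ![1, 0] ![0, 0] = x := by
  obtain ⟨N, rfl⟩ : ∃ N, u = N + 1 := ⟨u - 1, by abel⟩
  rw [add_sub_cancel_right] at h4 hx
  obtain ⟨A, hA⟩ : ∃ A : M4 F7, ∀ c, A *ᵥ c = c (.inl 0) • x + c (.inl 1) • N *ᵥ x +
      c (.inr 0) • N *ᵥ N *ᵥ N *ᵥ x + c (.inr 1) • N *ᵥ N *ᵥ x :=
    ⟨of fun i j => (Sum.elim ![x, N *ᵥ x] ![N *ᵥ N *ᵥ N *ᵥ x, N *ᵥ N *ᵥ x] j) i, fun c => by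
      generalize N *ᵥ N *ᵥ N *ᵥ x = x3, N *ᵥ N *ᵥ x = x2, N *ᵥ x = x1
      ext i
      simp [mulVec, dotProduct, Fintype.sum_sum_type]
      ring⟩
  have z : N *ᵥ N *ᵥ N *ᵥ N *ᵥ x = 0 := by
    simp only [mulVec_mulVec]
    rw [show N * (N * (N * N)) = N ^ 4 by noncomm_ring, h4, zero_mulVec]
  have nz : N *ᵥ N *ᵥ N *ᵥ x ≠ 0 := by
    simp only [mulVec_mulVec]
    rwa [show N * (N * N) = N ^ 3 by noncomm_ring]
  have hu : IsUnit A := by
    refine mulVec_injective_iff_isUnit.1 ((injective_iff_map_eq_zero A.mulVecLin).2 fun c hc => ?_)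
    rw [mulVecLin_apply, hA] at hc
    have h1 := congrArg (N *ᵥ ·) hc
    simp only [mulVec_add, mulVec_smul, z, smul_zero, add_zero, mulVec_zero] at h1
    have h2 := congrArg (N *ᵥ ·) h1
    simp only [mulVec_add, mulVec_smul, z, smul_zero, add_zero, mulVec_zero] at h2
    have h3 := congrArg (N *ᵥ ·) h2
    simp only [mulVec_add, mulVec_smul, z, smul_zero, add_zero, mulVec_zero] at h3
    have c0 := (smul_eq_zero.1 h3).resolve_right nz
    rw [c0, zero_smul, zero_add] at h2 h1 hc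
    have c1 := (smul_eq_zero.1 h2).resolve_right nz
    rw [c1, zero_smul, zero_add] at h1 hc
    have c2 := (smul_eq_zero.1 h1).resolve_right nz
    rw [c2, zero_smul, add_zero] at hc
    have c3 := (smul_eq_zero.1 hc).resolve_right nz
    ext (i | i) <;> fin_cases i <;> assumption
  let B : G4 F7 := ⟨fromBlocks !![1, 0; 0, 1] !![0, 0; 0, 0] !![0, 5; 0, 3] !![1, 1; 0, 6],
    fromBlocks !![1, 0; 0, 1] !![0, 0; 0, 0] !![0, 6; 0, 3] !![1, 1; 0, 6], by decide +kernel,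
    by decide +kernel⟩
  have e : (N + 1) * A = A * fromBlocks !![1, 0; 1, 1] !![0, 0; 0, 0] !![0, 0; 0, 1] !![1, 1; 0, 1] :=
    mat_ext_mulVec fun c => by
      rw [← mulVec_mulVec, ← mulVec_mulVec, hA, hA, add_mulVec, one_mulVec]
      simp only [mulVec_add, mulVec_smul, z]
      simp [mulVec, dotProduct, Fintype.sum_sum_type]
      module
  refine ⟨hu.unit * B, ?_, ?_⟩
  · rw [Units.val_mul, IsUnit.unit_spec, ← Matrix.mul_assoc, e, Matrix.mul_assoc, Matrix.mul_assoc]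
    congr 1
    decide +kernel
  · rw [Units.val_mul, IsUnit.unit_spec, ← mulVec_mulVec,
      show (B : M4 F7) *ᵥ Sum.elim ![1, 0] ![0, 0] = Sum.elim ![1, 0] ![0, 0] by decide +kernel, hA]
    simp

/-- The relations used to determine the module. -/
structure Rel {G : Type*} [Monoid G] [HasDistribNeg G] (u w t t' : G) : Prop where
  ww : w * w = -1
  rel : u * w * u * w * u = -w
  tu : t * u = u ^ 2 * t
  tu' : t' * u = u ^ 4 * t'
  tt : t' * t = 1
  wt : w * t = t' * w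

theorem Rel.conj {u w t t' : M4 F7} (h : Rel u w t t') (g : G4 F7) :
    Rel (((g⁻¹ : G4 F7) : M4 F7) * u * g) (((g⁻¹ : G4 F7) : M4 F7) * w * g)
      (((g⁻¹ : G4 F7) : M4 F7) * t * g) (((g⁻¹ : G4 F7) : M4 F7) * t' * g) := by
  have m := conj_mul g⁻¹
  rw [inv_inv] at m
  refine ⟨?_, ?_, ?_, ?_, ?_, ?_⟩
  · rw [m, h.ww]; simp
  · simp only [m, h.rel, Matrix.mul_neg, Matrix.neg_mul]
  · rw [sq, m, m, m, h.tu, sq]
  · simp only [pow_succ, pow_zero, Matrix.one_mul, m, h.tu']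
  · rw [m, h.tt]; simp
  · rw [m, m, h.wt]

theorem Rel.stage1 {w t t' : M4 F7} (h : Rel U0 w t t') :
    (U0 - 1) ^ 3 *ᵥ (w *ᵥ Sum.elim ![0, 0] ![1, 0]) ≠ 0 ∧ ∃ ε : F7, ε * ε = 1 ∧
      t *ᵥ (w *ᵥ Sum.elim ![0, 0] ![1, 0]) = ε • (w *ᵥ Sum.elim ![0, 0] ![1, 0]) := by
  obtain ⟨a, b, c, d, rfl⟩ := exists_cm_of h.tu
  obtain ⟨a', b', c', d', rfl⟩ := exists_cm_of h.tu'
  have e1 := congrFun (congrFun h.tt (.inl 0)) (.inl 0)
  have e2 : (cm (2 : ℕ) a b c d).trace = (cm (4 : ℕ) a' b' c' d').trace := by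
    have := congrArg trace (congrArg (· * w) h.wt)
    rwa [trace_mul_comm, ← Matrix.mul_assoc, Matrix.mul_assoc _ w w, h.ww, Matrix.neg_mul,
      Matrix.mul_neg, Matrix.one_mul, Matrix.mul_one, trace_neg, trace_neg, neg_inj] at this
  simp [cm, Matrix.mul_apply, Fintype.sum_sum_type] at e1
  simp [cm, trace, Fintype.sum_sum_type] at e2
  obtain rfl : a = a' := by grind
  have e3 : cm (4 : ℕ) a b' c' d' *ᵥ Sum.elim ![0, 0] ![1, 0] = a • Sum.elim ![0, 0] ![1, 0] := by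
    ext (i | i) <;> fin_cases i <;> simp [cm, mulVec, dotProduct, Fintype.sum_sum_type]
    grind
  have e4 : cm (2 : ℕ) a b c d * w = w * cm (4 : ℕ) a b' c' d' := by
    have h1 : w * (cm (2 : ℕ) a b c d * w) = w * (w * cm (4 : ℕ) a b' c' d') := by
      rw [← Matrix.mul_assoc, h.wt, Matrix.mul_assoc, ← Matrix.mul_assoc w w, h.ww]; simp
    have h2 : w * (w * (cm (2 : ℕ) a b c d * w)) = w * (w * (w * cm (4 : ℕ) a b' c' d')) := by
      rw [h1]
    rwa [← Matrix.mul_assoc w w, ← Matrix.mul_assoc w w, h.ww, Matrix.neg_mul, Matrix.neg_mul,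
      Matrix.one_mul, Matrix.one_mul, neg_inj] at h2
  have e5 : cm (2 : ℕ) a b c d *ᵥ (w *ᵥ Sum.elim ![0, 0] ![1, 0]) =
      a • (w *ᵥ Sum.elim ![0, 0] ![1, 0]) := by
    rw [mulVec_mulVec, e4, ← mulVec_mulVec, e3, mulVec_smul]
  refine ⟨fun hz => ?_, a, e1, e5⟩
  have e6 : w *ᵥ (w *ᵥ Sum.elim ![0, 0] ![1, 0]) = -Sum.elim ![0, 0] ![1, 0] := by
    rw [mulVec_mulVec, h.ww, neg_mulVec, one_mulVec]
  generalize hx : w *ᵥ Sum.elim ![0, 0] ![1, 0] = x at hz e5 e6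
  rw [show (U0 - 1) ^ 3 = fromBlocks !![0, 0; 0, 0] !![0, 0; 0, 0] !![1, 0; 0, 0] !![0, 0; 0, 0] by
    simp only [pow_succ, pow_zero]; decide +kernel] at hz
  have x0 := congrFun hz (.inr 0)
  have x1 := congrFun e5 (.inl 1)
  have x3 := congrFun e5 (.inr 1)
  simp [cm, mulVec, dotProduct, Fintype.sum_sum_type] at x0 x1 x3
  have x1' : x (.inl 1) = 0 := by grind
  have x3' : x (.inr 1) = 0 := by grind
  have ex : x = x (.inr 0) • Sum.elim ![0, 0] ![1, 0] := by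
    ext (i | i) <;> fin_cases i <;> simp [x0, x1', x3']
  rw [ex, mulVec_smul, hx, ex, smul_smul] at e6
  have := congrFun e6 (.inr 0)
  simp only [Pi.smul_apply, Sum.elim_inr, cons_val, smul_eq_mul, mul_one, Pi.neg_apply] at this
  generalize x (.inr 0) = r at this
  revert r
  decide

theorem Rel.stage2 {w t t' : M4 F7} (h : Rel U0 w t t') {ε : F7} (hε : ε * ε = 1)
    (ht : t *ᵥ Sum.elim ![1, 0] ![0, 0] = ε • Sum.elim ![1, 0] ![0, 0])
    (hw : w (.inl 0) (.inl 0) = 0) : w = W0 := by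
  obtain ⟨a, b, c, d, rfl⟩ := exists_cm_of h.tu
  have t0 := congrFun ht (.inl 0)
  have t1 := congrFun ht (.inl 1)
  have t2 := congrFun ht (.inr 0)
  have t3 := congrFun ht (.inr 1)
  simp [cm, mulVec, dotProduct, Fintype.sum_sum_type] at t0 t1 t2 t3
  subst t0 t1 t2 t3
  have e : cm (2 : ℕ) a 0 0 0 * (w * cm (2 : ℕ) a 0 0 0) = w := by
    rw [h.wt, ← Matrix.mul_assoc, mul_eq_one_comm.1 h.tt, Matrix.one_mul]
  have e' : w = fromBlocks !![0, 0; 0, 0] !![w (.inl 0) (.inr 0), 0; 0, w (.inl 1) (.inr 1)]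
      !![w (.inr 0) (.inl 0), 0; 0, w (.inr 1) (.inl 1)] !![w (.inr 0) (.inr 0), 0; 0, 0] := by
    ext i j
    have := congrFun (congrFun e i) j
    rcases i with i | i <;> rcases j with j | j <;> fin_cases i <;> fin_cases j <;>
      simp [cm, Matrix.mul_apply, Fintype.sum_sum_type, hw] at this ⊢ <;> grind
  have r1 := h.ww
  have r2 : U0 * w * U0 = w * U0i * w := by
    have := congrArg (· * U0i * w) h.rel
    simp only [Matrix.mul_assoc, h.ww] at this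
    rw [← Matrix.mul_assoc U0 U0i, show U0 * U0i = 1 from u0.mul_inv, Matrix.one_mul, h.ww] at this
    simpa [Matrix.mul_assoc] using this
  rw [e'] at r1 r2 ⊢
  generalize w (.inl 0) (.inr 0) = p, w (.inl 1) (.inr 1) = q, w (.inr 0) (.inl 0) = r,
    w (.inr 1) (.inl 1) = s, w (.inr 0) (.inr 0) = v at r1 r2
  have s1 := congrFun (congrFun r1 (.inl 0)) (.inl 0)
  have s2 := congrFun (congrFun r1 (.inl 1)) (.inl 1)
  have s3 := congrFun (congrFun r1 (.inl 0)) (.inr 0)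
  simp [Matrix.mul_apply, Fintype.sum_sum_type] at s1 s2 s3
  obtain rfl : v = 0 := by grind
  clear r1 s3
  revert p r q s
  decide +kernel

theorem Rel.exists_conj {u w t t' : M4 F7} (h : Rel u w t t') (h7 : u ^ 7 = 1)
    (h3 : (u - 1) ^ 3 ≠ 0) : ∃ g : G4 F7, u * g = g * U0 ∧ w * g = g * W0 := by
  have nil : ∀ u : M4 F7, u ^ 7 = 1 → (u - 1) ^ 4 = 0 := fun u h7 =>
    pow_four_of_nilp ⟨7, by rw [sub_pow_char_of_commute _ (Commute.one_right u), h7]; simp⟩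
  obtain ⟨v, hv⟩ : ∃ v, (u - 1) ^ 3 *ᵥ v ≠ 0 := by
    by_contra! hall
    exact h3 (mat_ext_mulVec fun v => by rw [hall, zero_mulVec])
  have cj : ∀ {A B : M4 F7} {g : G4 F7}, A * g = g * B ↔ ((g⁻¹ : G4 F7) : M4 F7) * A * g = B :=
    fun {A B g} => by rw [Matrix.mul_assoc, Units.inv_mul_eq_iff_eq_mul]
  obtain ⟨g, hg, -⟩ := cyc (nil u h7) hv
  have h1 := h.conj g
  rw [cj.1 hg] at h1
  obtain ⟨s1, ε, hε, s2⟩ := h1.stage1
  obtain ⟨k, hk, hx⟩ := cyc (nil U0 (by rw [U0_pow]; decide +kernel)) s1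
  have h2 := h1.conj k
  rw [cj.1 hk] at h2
  refine ⟨g * k, by rw [Units.val_mul, ← Matrix.mul_assoc, hg, Matrix.mul_assoc, hk,
    Matrix.mul_assoc], cj.2 ?_⟩
  rw [← h2.stage2 hε ?_ ?_, _root_.mul_inv_rev, Units.val_mul, Units.val_mul]
  · simp only [Matrix.mul_assoc]
  · rw [← mulVec_mulVec, ← mulVec_mulVec, hx, s2, mulVec_smul, ← hx, mulVec_mulVec, Units.inv_mul,
      one_mulVec]
  · generalize ((g⁻¹ : G4 F7) : M4 F7) * w * g = w1 at h1 hx
    have e : (((k⁻¹ : G4 F7) : M4 F7) * w1 * (k : M4 F7)) *ᵥ Sum.elim ![1, 0] ![0, 0] =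
        -(((k⁻¹ : G4 F7) : M4 F7) *ᵥ Sum.elim ![0, 0] ![1, 0]) := by
      rw [← mulVec_mulVec, ← mulVec_mulVec, hx, mulVec_mulVec _ w1, h1.ww, neg_mulVec, one_mulVec,
        mulVec_neg]
    obtain ⟨a, b, c, d, ek⟩ := exists_cm_of (A := ((k⁻¹ : G4 F7) : M4 F7)) (k := 1) (by
      rw [pow_one]; exact (Commute.units_inv_left (show Commute (k : M4 F7) U0 from hk.symm)).eq)
    have := congrFun e (.inl 0)
    rw [ek] at this ⊢
    simpa [cm, mulVec, dotProduct, Fintype.sum_sum_type] using this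

theorem simil {g : G4 F7} {u w : M4 F7} (hu : adj u * u = 1) (hw : adj w * w = 1)
    (e1 : u * g = g * U0) (e2 : w * g = g * W0) {x : G4 F7} :
    g * x * g⁻¹ ∈ Cfsg.spGL 2 F7 ↔ x ∈ Cfsg.spGL 2 F7 := by
  have key : ∀ {u U : M4 F7}, adj u * u = 1 → adj U * U = 1 → u * g = g * U →
      adj (g : M4 F7) * g * U = U * (adj (g : M4 F7) * g) := by
    intro u U hu hU e
    have := congrArg adj e
    rw [adj_mul, adj_mul] at this
    calc adj (g : M4 F7) * g * U = (U * adj U) * (adj (g : M4 F7) * (u * g)) := by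
          rw [mul_eq_one_comm.1 hU, Matrix.one_mul, e, Matrix.mul_assoc]
      _ = U * (adj (g : M4 F7) * (adj u * u) * g) := by
          rw [Matrix.mul_assoc, ← Matrix.mul_assoc (adj U), ← this]
          simp only [Matrix.mul_assoc]
      _ = _ := by rw [hu, Matrix.mul_one]
  have k1 := key hu (mem_spGL_iff.1 u0_sp) e1
  have k2 := key hw (mem_spGL_iff.1 w0_sp) e2
  obtain ⟨a, b, c, d, e⟩ := exists_cm_of (A := adj (g : M4 F7) * g) (k := 1) (by
    rw [pow_one]; exact k1)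
  have e' : adj (g : M4 F7) * g = a • (1 : M4 F7) := by
    rw [e] at k2 ⊢
    have b0 := congrFun (congrFun k2 (.inl 1)) (.inr 0)
    have c0 := congrFun (congrFun k2 (.inl 0)) (.inl 0)
    have d0 := congrFun (congrFun k2 (.inl 1)) (.inl 0)
    simp [cm, w0, W0, Matrix.mul_apply, Fintype.sum_sum_type] at b0 c0 d0
    obtain rfl : d = 0 := by grind
    subst b0 c0
    ext (i | i) (j | j) <;> fin_cases i <;> fin_cases j <;> simp [cm]
  have i1 : adj ((g⁻¹ : G4 F7) : M4 F7) * adj (g : M4 F7) = 1 := by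
    rw [← adj_mul, Units.mul_inv, adj_one]
  have a0 : a ≠ 0 := by
    rintro rfl
    refine g.ne_zero ?_
    rw [← Matrix.one_mul (g : M4 F7), ← i1, Matrix.mul_assoc, e', zero_smul, Matrix.mul_zero]
  have i2 : adj ((g⁻¹ : G4 F7) : M4 F7) = a⁻¹ • (g : M4 F7) := by
    have := congrArg (adj ((g⁻¹ : G4 F7) : M4 F7) * ·) e'
    simp only [← Matrix.mul_assoc, i1, Matrix.one_mul, Matrix.mul_smul, Matrix.mul_one] at this
    rw [this, smul_smul, inv_mul_cancel₀ a0, one_smul]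
  have : adj ((g * x * g⁻¹ : G4 F7) : M4 F7) * (g * x * g⁻¹ : G4 F7) =
      g * (adj (x : M4 F7) * x) * ((g⁻¹ : G4 F7) : M4 F7) := by
    simp only [Units.val_mul, adj_mul, i2, Matrix.mul_assoc]
    rw [← Matrix.mul_assoc (adj (g : M4 F7)), e']
    simp only [Matrix.smul_mul, Matrix.mul_smul, Matrix.one_mul, smul_smul, mul_inv_cancel₀ a0,
      inv_mul_cancel₀ a0, one_smul]
  rw [mem_spGL_iff, mem_spGL_iff, this, Units.mul_inv_eq_iff_eq_mul, Matrix.one_mul]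
  exact ⟨fun e => g.isUnit.mul_left_cancel (by rw [e, Matrix.mul_one]), fun e => by
    rw [e, Matrix.mul_one]⟩

end Cfsg.Agent.DIM4.L27
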