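import Cfsg.Prelude.Def_GeometricClasses

/-! Quadratic modules for `SL₂(K)`. -/

set_option autoImplicit false

namespace Cfsg.Agent.DIM4

open Matrix

/-- A quadratic module for `SL₂(K)` is a sum of natural modules. -/
theorem quad_central {A K : Type*} [Ring A] [Field K] [Finite K] (N M : K → A)
    (Nadd : ∀ a b, N (a + b) = N a + N b) (Madd : ∀ a b, M (a + b) = M a + M b)
    (NN : ∀ a b, N a * N b = 0) (MM : ∀ a b, M a * M b = 0)
    (hπ : ∀ l, l ≠ 0 → N l * M l⁻¹ + M l⁻¹ * N l = 1)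
    (hc : ∀ l a, l ≠ 0 → (N l - M l⁻¹) * N a = -(M (l⁻¹ ^ 2 * a) * (N l - M l⁻¹))) :
    ∃ Z : K → A, (∀ a, N a = Z a * N 1 ∧ M a = Z a * M 1) ∧
      ∀ a b, Z a * N b = N b * Z a ∧ Z a * M b = M b * Z a := by
  have _ := Madd
  have π1 : N 1 * M 1 + M 1 * N 1 = 1 := by simpa using hπ 1 one_ne_zero
  have NN' : ∀ a b x, N a * (N b * x) = 0 := fun a b x => by rw [← mul_assoc, NN, zero_mul]
  have MM' : ∀ a b x, M a * (M b * x) = 0 := fun a b x => by rw [← mul_assoc, MM, zero_mul]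
  let Z : K → A := fun a => N a * M 1 + M 1 * N a
  have n1 : ∀ a, Z a * N 1 = N a := fun a => by
    have := congrArg (N a * ·) π1
    simpa [Z, mul_add, add_mul, mul_assoc, NN, NN'] using this
  have n2 : ∀ a, N 1 * Z a = N a := fun a => by
    have := congrArg (· * N a) π1
    simpa [Z, mul_add, add_mul, mul_assoc, NN, NN'] using this
  have cN : ∀ a, N 1 * Z a = Z a * N 1 := fun a => by rw [n1, n2]
  have cM : ∀ a, M 1 * Z a = Z a * M 1 := fun a => by
    simp [Z, mul_add, add_mul, mul_assoc, MM, MM']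
  have m1 : ∀ a, Z a * M 1 = M a := fun a => by
    have h1 : M 1 * N a = M a * N 1 := by
      simpa [mul_sub, sub_mul, NN, MM] using hc 1 a one_ne_zero
    have := congrArg (M a * ·) π1
    simp only [mul_add, MM', add_zero, mul_one] at this
    rw [← this, ← mul_assoc, ← h1]
    simp [Z, add_mul, mul_assoc, MM]
  have nmn : N 1 * M 1 * N 1 = N 1 := by
    simpa [add_mul, mul_assoc, NN] using congrArg (· * N 1) π1
  have canc : ∀ C : A, M 1 * C = C * M 1 → C * N 1 = 0 → C = 0 := fun C h1 h2 => by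
    rw [← mul_one C, ← π1, mul_add, ← mul_assoc, h2, ← mul_assoc, ← h1, mul_assoc, h2]; simp
  have cM2 : ∀ a b, M 1 * (Z a * Z b) = Z a * Z b * M 1 := fun a b => by
    rw [← mul_assoc, cM, mul_assoc, cM, mul_assoc]
  have nm : ∀ a b, N a * M b = Z a * Z b * (N 1 * M 1) := fun a b => by
    rw [← n1 a, ← m1 b, mul_assoc, ← mul_assoc (N 1), cN, mul_assoc, mul_assoc]
  have mn : ∀ a b, M a * N b = Z a * Z b * (M 1 * N 1) := fun a b => by
    rw [← m1 a, ← n1 b, mul_assoc, ← mul_assoc (M 1), cM, mul_assoc, mul_assoc]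
  have zi : ∀ l, l ≠ 0 → Z l * Z l⁻¹ = 1 := fun l hl => by
    have := congrArg (· * N 1) (hπ l hl)
    simp only [add_mul, one_mul] at this
    rw [mul_assoc (M _), NN, mul_zero, add_zero, nm, mul_assoc, nmn] at this
    refine sub_eq_zero.1 (canc _ ?_ ?_)
    · rw [mul_sub, sub_mul, cM2, mul_one, one_mul]
    · rw [sub_mul, this, one_mul, sub_self]
  have jor : ∀ l a, l ≠ 0 → Z (l ^ 2 * a) = Z l * Z a * Z l := fun l a hl => by
    have h := hc l⁻¹ a (inv_ne_zero hl)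
    rw [inv_inv, sub_mul, mul_sub, NN, MM, zero_sub, sub_zero, neg_inj, mn l a, mn _ l⁻¹] at h
    have h2 : Z l * Z a - Z (l ^ 2 * a) * Z l⁻¹ = 0 := by
      refine canc _ (by rw [mul_sub, sub_mul, cM2, cM2]) ?_
      have e : ∀ a b, Z a * Z b * N 1 = N 1 * (Z a * Z b * (M 1 * N 1)) := fun a b => by
        rw [← mul_assoc (N 1), ← mul_assoc (N 1), cN, mul_assoc (Z a) (N 1), cN,
          ← mul_assoc (Z a), mul_assoc _ (N 1), ← mul_assoc (N 1), nmn]
      rw [sub_mul, e, e, h, sub_self]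
    have h3 := zi l⁻¹ (inv_ne_zero hl)
    rw [inv_inv] at h3
    rw [sub_eq_zero.1 h2, mul_assoc, h3, mul_one]
  have z1 : Z 1 = 1 := π1
  have z0 : Z 0 = 0 := by
    have : N 0 = 0 := by simpa using Nadd 0 0
    simp [Z, this]
  obtain ⟨g, hg⟩ := IsCyclic.exists_monoid_generator (α := Kˣ)
  have zp : ∀ n : ℕ, Z ((g : K) ^ n) = Z g ^ n ∧ Z ((g : K) ^ (n + 1)) = Z g ^ (n + 1) := by
    intro n
    induction n with
    | zero => simp [z1]
    | succ n ih =>
      refine ⟨ih.2, ?_⟩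
      rw [show (g : K) ^ (n + 1 + 1) = (g : K) ^ 2 * g ^ n by ring, jor _ _ g.ne_zero, ih.1,
        ← pow_succ', ← pow_succ]
  have zz : ∀ a, ∃ n : ℕ, Z a = 0 ∨ Z a = Z g ^ n := fun a => by
    by_cases ha : a = 0
    · exact ⟨0, Or.inl (ha ▸ z0)⟩
    obtain ⟨n, hn⟩ := hg (Units.mk0 a ha)
    exact ⟨n, Or.inr (by rw [← (zp n).1, ← Units.val_pow_eq_pow_val]; exact congrArg (Z ·.1) hn.symm)⟩
  have zc : ∀ a b, Z a * Z b = Z b * Z a := fun a b => by
    obtain ⟨n, h | h⟩ := zz a <;> obtain ⟨m, k | k⟩ := zz b <;> simp [h, k, pow_mul_comm]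
  refine ⟨Z, fun a => ⟨(n1 a).symm, (m1 a).symm⟩, fun a b => ⟨?_, ?_⟩⟩
  · rw [← n1 b, ← mul_assoc, zc, mul_assoc, mul_assoc, cN]
  · rw [← m1 b, ← mul_assoc, zc, mul_assoc, mul_assoc, cM]

/-- The braid relation for two square-zero elements. -/
theorem braid_quad {A : Type*} [Ring A] {N M : A} (NN : N * N = 0) (MM : M * M = 0)
    (hb : (1 + N) * (1 - M) * (1 + N) = (1 - M) * (1 + N) * (1 - M)) :
    N - N * M * N = M * N * M - M := by
  have : (1 + N) * (1 - M) * (1 + N) - (1 - M) * (1 + N) * (1 - M) =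
      (N - N * M * N) - (M * N * M - M) + N * N - M * M := by noncomm_ring
  rw [hb, sub_self, NN, MM, add_zero, sub_zero] at this
  exact sub_eq_zero.1 this.symm

theorem quad_span {F K : Type*} {ι : Type} [Field F] [Fintype ι] [DecidableEq ι] [Field K] [Finite K]
    {P : Subgroup (GL ι F)} (hs : ∀ A : Matrix ι ι F, (∀ s ∈ Cfsg.Geo.matrixSet P, A * s = s * A) →
      ∃ c : F, A = c • (1 : Matrix ι ι F)) (X Y : K → GL ι F) (N M : K → Matrix ι ι F)
    (hX : ∀ a, (X a : Matrix ι ι F) = 1 + N a) (hY : ∀ a, (Y a : Matrix ι ι F) = 1 + M a)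
    (gen : Subgroup.closure (Set.range X ∪ Set.range Y) = P)
    (Nadd : ∀ a b, N (a + b) = N a + N b) (Madd : ∀ a b, M (a + b) = M a + M b)
    (NN : ∀ a b, N a * N b = 0) (MM : ∀ a b, M a * M b = 0)
    (hπ : ∀ l, l ≠ 0 → N l * M l⁻¹ + M l⁻¹ * N l = 1)
    (hc : ∀ l a, l ≠ 0 → (N l - M l⁻¹) * N a = -(M (l⁻¹ ^ 2 * a) * (N l - M l⁻¹))) :
    ∀ g ∈ P, (g : Matrix ι ι F) ∈ Submodule.span F {1, N 1, M 1, N 1 * M 1} := by
  obtain ⟨Z, z1, z2⟩ := quad_central N M Nadd Madd NN MM hπ hc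
  have inv : ∀ (x : GL ι F) (n : Matrix ι ι F), (x : Matrix ι ι F) = 1 + n → n * n = 0 →
      ((x⁻¹ : GL ι F) : Matrix ι ι F) = 1 - n := fun x n h1 h2 =>
    Units.inv_eq_of_mul_eq_one_right (by
      rw [h1, Matrix.mul_sub, Matrix.add_mul, Matrix.add_mul, h2]; simp)
  have ind : ∀ T : Subring (Matrix ι ι F), (∀ a, N a ∈ T) → (∀ a, M a ∈ T) →
      ∀ g ∈ P, (g : Matrix ι ι F) ∈ T := by
    intro T h1 h2 g hg
    rw [← gen] at hg
    induction hg using Subgroup.closure_induction'' with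
    | mem x hx =>
      rcases hx with ⟨b, rfl⟩ | ⟨b, rfl⟩
      · rw [hX]; exact T.add_mem T.one_mem (h1 b)
      · rw [hY]; exact T.add_mem T.one_mem (h2 b)
    | inv_mem x hx =>
      rcases hx with ⟨b, rfl⟩ | ⟨b, rfl⟩
      · rw [inv _ _ (hX b) (NN b b)]; exact T.sub_mem T.one_mem (h1 b)
      · rw [inv _ _ (hY b) (MM b b)]; exact T.sub_mem T.one_mem (h2 b)
    | one => exact T.one_mem
    | mul x y _ _ hx hy => exact T.mul_mem hx hy
  have zs : ∀ a, ∃ c : F, Z a = c • (1 : Matrix ι ι F) := fun a => hs _ (by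
    rintro _ ⟨g, hg, rfl⟩
    exact ind (Subring.centralizer {Z a}) (fun b => by simpa [Subring.mem_centralizer_iff] using (z2 a b).1)
      (fun b => by simpa [Subring.mem_centralizer_iff] using (z2 a b).2) g hg _ rfl)
  have π1 : M 1 * N 1 = 1 - N 1 * M 1 := eq_sub_of_add_eq' (by simpa using hπ 1 one_ne_zero)
  have n := NN 1 1
  have m := MM 1 1
  generalize N 1 = A at z1 π1 n ⊢
  generalize M 1 = B at z1 π1 m ⊢
  have π2 : ∀ x, B * (A * x) = x - A * (B * x) := fun x => by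
    rw [← Matrix.mul_assoc, π1, Matrix.sub_mul, Matrix.one_mul, Matrix.mul_assoc]
  have n' : ∀ x, A * (A * x) = 0 := fun x => by rw [← Matrix.mul_assoc, n, Matrix.zero_mul]
  let V := Submodule.span F ({1, A, B, A * B} : Set (Matrix ι ι F))
  have s1 : (1 : Matrix ι ι F) ∈ V := Submodule.subset_span (by simp)
  have s2 : A ∈ V := Submodule.subset_span (by simp)
  have s3 : B ∈ V := Submodule.subset_span (by simp)
  have s4 : A * B ∈ V := Submodule.subset_span (by simp)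
  have mulV : V * V ≤ V := by
    rw [Submodule.span_mul_span, Submodule.span_le]
    rintro _ ⟨x, hx, y, hy, rfl⟩
    simp only [Set.mem_insert_iff, Set.mem_singleton_iff] at hx hy
    rcases hx with rfl | rfl | rfl | rfl <;> rcases hy with rfl | rfl | rfl | rfl <;>
      simp [Matrix.mul_assoc, π1, π2, n, m, n', Matrix.mul_sub, s1, s2, s3, s4, V.sub_mem]
  let T : Subring (Matrix ι ι F) :=
    { V.toAddSubgroup with
      one_mem' := s1
      mul_mem' := fun ha hb => mulV (Submodule.mul_mem_mul ha hb) }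
  refine ind T (fun a => ?_) fun a => ?_
  · obtain ⟨c, hc⟩ := zs a
    rw [(z1 a).1, hc, Matrix.smul_mul, Matrix.one_mul]; exact V.smul_mem c s2
  · obtain ⟨c, hc⟩ := zs a
    rw [(z1 a).2, hc, Matrix.smul_mul, Matrix.one_mul]; exact V.smul_mem c s3

end Cfsg.Agent.DIM4
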