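import Cfsg.Agent.DIM4.Defs2

/-! Stabilisers of spanning sets of `W`; skew elements with scalar square. -/

set_option autoImplicit false

namespace Cfsg.Agent.DIM4

open Matrix

variable {F : Type*} [Field F] [Finite F] {H P : Subgroup (G4 F)}

omit [Finite F] in
theorem conj_conj (g k : G4 F) (v : M4 F) :
    ((g * k : G4 F) : M4 F) * v * (((g * k)⁻¹ : G4 F) : M4 F) =
      g * ((k : M4 F) * v * ((k⁻¹ : G4 F) : M4 F)) * ((g⁻¹ : G4 F) : M4 F) := by
  simp only [_root_.mul_inv_rev, Units.val_mul, Matrix.mul_assoc]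

theorem exists_stab (R : Set (M4 F)) : ∃ M : Subgroup (G4 F), ∀ g, g ∈ M ↔
    g ∈ Cfsg.spGL 2 F ∧ ∀ v ∈ R, (g : M4 F) * v * ((g⁻¹ : G4 F) : M4 F) ∈ R := by
  let S : Submonoid (G4 F) :=
    { carrier := {g | g ∈ Cfsg.spGL 2 F ∧ ∀ v ∈ R, (g : M4 F) * v * ((g⁻¹ : G4 F) : M4 F) ∈ R}
      one_mem' := ⟨Subgroup.one_mem _, fun v hv => by simpa using hv⟩
      mul_mem' := fun {a b} ha hb => ⟨Subgroup.mul_mem _ ha.1 hb.1, fun v hv => by
        rw [conj_conj]; exact ha.2 _ (hb.2 v hv)⟩ }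
  refine ⟨{ S with inv_mem' := fun {g} hg => ?_ }, fun _ => Iff.rfl⟩
  have := S.pow_mem hg (orderOf g - 1)
  rwa [show g ^ (orderOf g - 1) = g⁻¹ from eq_inv_of_mul_eq_one_left (by
    rw [← pow_succ, Nat.sub_add_cancel (orderOf_pos g), pow_orderOf_eq_one])] at this

theorem exists_not_stab (h2 : (2 : F) ≠ 0) {R : Set (M4 F)} (hW : ∀ v ∈ R, v ∈ Wsp F)
    (hs : Wsp F ≤ Submodule.span F R)
    (hsep : ∀ v ∈ R, ∀ v' ∈ R, bW v v' = bW v v → v' = v ∨ v' = -v) :
    ∃ g ∈ Cfsg.spGL 2 F, ∃ v ∈ R, (g : M4 F) * v * ((g⁻¹ : G4 F) : M4 F) ∉ R := by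
  by_contra! hc
  set s : M4 F := cl (Pi.single 1 1) with hs0
  set y : M4 F := cl (Pi.single 3 1) with hy0
  have sW : s ∈ Wsp F := cl_mem _
  have yW : y ∈ Wsp F := cl_mem _
  have qs : qW s = 0 := by simp [hs0, qW_cl h2]
  have qy : qW y = 0 := by simp [hy0, qW_cl h2]
  have ss : s * s = 0 := by rw [mul_self h2 sW, qs, zero_smul]
  have sy : bW s y = 0 := by simp [hs0, hy0, bW_cl h2]
  have bs : bW s s = 0 := by rw [bW_self h2, qs, mul_zero]
  have hv0 : ∀ v ∈ R, bW s v = 0 := by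
    intro v hv
    have m := hc _ (spOf_mem _ (eich_sp h2 sW ss yW sy)) v hv
    rw [← adj_coe (spOf_mem _ _), coe_spOf, adj_eich h2 sW yW sy,
      eich_conj h2 sW ss yW (hW v hv) sy, qy, mul_zero, sub_zero] at m
    rcases hsep v hv _ m (by
      rw [bW_sub_right, bW_add_right, bW_smul_right, bW_smul_right, bW_comm v s, bW_comm v y]
      ring) with e | e
    · have := congrArg (bW (cl (Pi.single 4 1))) e
      rw [bW_sub_right, bW_add_right, bW_smul_right, bW_smul_right, hs0, hy0, bW_cl h2,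
        bW_cl h2] at this
      simpa using this
    · have := congrArg (bW s) e
      rw [bW_sub_right, bW_add_right, bW_smul_right, bW_smul_right, bs, sy, bW_neg_right] at this
      exact (mul_eq_zero.1 (by linear_combination this : 2 * bW s v = 0)).resolve_left h2
  have : Submodule.span F R ≤ LinearMap.ker (bL F s) := Submodule.span_le.2 hv0
  have := this (hs (cl_mem (Pi.single 2 1)))
  simp [hs0, bW_cl h2] at this

theorem Res.mem_of_stab (h : Res H P) {R : Set (M4 F)} (hW : ∀ v ∈ R, v ∈ Wsp F)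
    (hs : Wsp F ≤ Submodule.span F R)
    (hsep : ∀ v ∈ R, ∀ v' ∈ R, bW v v' = bW v v → v' = v ∨ v' = -v)
    (hH : ∀ g ∈ H, ∀ v ∈ R, (g : M4 F) * v * ((g⁻¹ : G4 F) : M4 F) ∈ R) {g : G4 F}
    (hg : g ∈ Cfsg.spGL 2 F) (hgR : ∀ v ∈ R, (g : M4 F) * v * ((g⁻¹ : G4 F) : M4 F) ∈ R) :
    g ∈ H := by
  obtain ⟨M, hM⟩ := exists_stab R
  rcases h.max.2 M (fun k hk => (hM k).2 ⟨h.max.1.le hk, hH k hk⟩) (fun k hk => ((hM k).1 hk).1)
    with e | e
  · exact e ▸ (hM g).2 ⟨hg, hgR⟩
  · obtain ⟨k, hk, v, hv, hn⟩ := exists_not_stab h.two hW hs hsep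
    exact absurd (((hM k).1 (e ▸ hk)).2 v hv) hn

omit [Finite F] in
theorem pm_of_comm {g : G4 F} (hg : g ∈ Cfsg.spGL 2 F) (h : ∀ v ∈ Wsp F, (g : M4 F) * v = v * g) :
    g = 1 ∨ g = -1 := by
  obtain ⟨c, hc⟩ := scalar_of_comm h
  have := mem_spGL_iff.1 hg
  rw [hc, adj_smul, adj_one, Matrix.smul_mul, Matrix.one_mul, smul_smul] at this
  have := congrFun (congrFun this (.inl 0)) (.inl 0)
  simp only [Matrix.smul_apply, one_apply_eq, smul_eq_mul, mul_one] at this
  rcases mul_self_eq_one_iff.1 this with rfl | rfl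
  · exact Or.inl (Units.ext (by simpa using hc))
  · exact Or.inr (Units.ext (by simpa using hc))

omit [Finite F] in
theorem pm_of_conj_eq (h2 : (2 : F) ≠ 0) {g k : G4 F} (hg : g ∈ Cfsg.spGL 2 F)
    (hk : k ∈ Cfsg.spGL 2 F) {R : Set (M4 F)} (hs : Wsp F ≤ Submodule.span F R)
    (h : ∀ v ∈ R, (g : M4 F) * v * ((g⁻¹ : G4 F) : M4 F) = k * v * ((k⁻¹ : G4 F) : M4 F)) :
    g = k ∨ g = -k := by
  have _ := h2
  have key : ∀ v ∈ Submodule.span F R, ((k⁻¹ * g : G4 F) : M4 F) * v = v * (k⁻¹ * g : G4 F) := by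
    intro v hv
    induction hv using Submodule.span_induction with
    | mem v hv =>
      have := congrArg (fun X => ((k⁻¹ : G4 F) : M4 F) * X * g) (h v hv)
      simp only [Matrix.mul_assoc, Units.inv_mul, Matrix.mul_one] at this
      rw [Units.val_mul, Matrix.mul_assoc, this, ← Matrix.mul_assoc, Units.inv_mul, Matrix.one_mul]
    | zero => simp
    | add a b _ _ ha hb => rw [Matrix.mul_add, Matrix.add_mul, ha, hb]
    | smul c a _ ha => rw [Matrix.mul_smul, Matrix.smul_mul, ha]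
  rcases pm_of_comm (mul_mem (inv_mem hk) hg) fun v hv => key v (hs hv) with e | e
  · exact Or.inl (inv_mul_eq_one.1 e).symm
  · exact Or.inr (by rw [inv_mul_eq_iff_eq_mul.1 e, mul_neg_one])

omit [Finite F] in
theorem fix3 (h2 : (2 : F) ≠ 0) {B : M4 F} {c : F} (hB : adj B = -B) (hc : c ≠ 0)
    (hBB : B * B = c • (1 : M4 F)) : ∃ v ∈ Wsp F, qW v ≠ 0 ∧ B * v ∈ Wsp F ∧ bW v (B * v) = 0 ∧
      qW (B * v) = -c * qW v ∧
      (∀ u ∈ Wsp F, B * u = u * B ↔ bW v u = 0 ∧ bW (B * v) u = 0) ∧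
      (∀ u ∈ Wsp F, B * u = -(u * B) ↔ u ∈ Submodule.span F {v, B * v}) := by
  have BB : ∀ X : M4 F, B * (B * X) = c • X := fun X => by
    rw [← Matrix.mul_assoc, hBB, Matrix.smul_mul, Matrix.one_mul]
  have two : ∀ {X : M4 F}, X = -X → X = 0 := fun {X} e => smul_right_injective _ h2 (by
    change (2 : F) • X = (2 : F) • (0 : M4 F)
    rw [two_smul, smul_zero, add_eq_zero_iff_eq_neg]; exact e)
  have two' : ∀ {x : F}, x = -x → x = 0 := fun {x} e =>
    (mul_eq_zero.1 (by linear_combination e : 2 * x = 0)).resolve_left h2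
  -- commuting and anticommuting vectors are perpendicular
  have perp : ∀ u w : M4 F, B * u = u * B → B * w = -(w * B) → bW w u = 0 := by
    intro u w hu hw
    have : (B * (w * u) * B).trace = -(B * (w * u) * B).trace := by
      conv_lhs => rw [← Matrix.mul_assoc B, hw, Matrix.neg_mul, Matrix.neg_mul, trace_neg,
        Matrix.mul_assoc w B, hu, Matrix.mul_assoc, Matrix.mul_assoc, hBB]
      rw [trace_mul_comm (B * _) B, BB, Matrix.mul_smul, Matrix.mul_one, Matrix.mul_smul]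
    have := two' this
    rw [trace_mul_comm, BB, trace_smul, smul_eq_mul] at this
    rw [bW, (mul_eq_zero.1 this).resolve_left hc, zero_div]
  have hBW : ∀ u ∈ Wsp F, B * u * B ∈ Wsp F := fun u hu => ⟨by
    rw [adj_mul, adj_mul, hB, hu.1]; simp [Matrix.mul_assoc], by
    rw [trace_mul_comm, BB, trace_smul, hu.2, smul_zero]⟩
  have plus : ∀ u : M4 F, B * (c • u + B * u * B) = (c • u + B * u * B) * B := fun u => by
    simp only [Matrix.mul_add, Matrix.add_mul, Matrix.mul_smul, Matrix.smul_mul, Matrix.mul_assoc,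
      BB, hBB, Matrix.mul_one]
    abel
  have minus : ∀ u : M4 F, B * (c • u - B * u * B) = -((c • u - B * u * B) * B) := fun u => by
    simp only [Matrix.mul_sub, Matrix.sub_mul, Matrix.mul_smul, Matrix.smul_mul, Matrix.mul_assoc,
      BB, hBB, Matrix.mul_one]
    abel
  obtain ⟨v, hv, hvB, hq⟩ : ∃ v ∈ Wsp F, B * v = -(v * B) ∧ qW v ≠ 0 := by
    by_contra! hn
    have z : ∀ w ∈ Wsp F, B * w = -(w * B) → w = 0 := by
      intro w hw hwB
      refine eq_zero_of_perp h2 hw fun u hu => ?_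
      have m := sub_mem ((Wsp F).smul_mem c hu) (hBW u hu)
      have e1 := perp _ w (plus u) hwB
      have e2 := hn _ (add_mem hw m) (by
        rw [Matrix.mul_add, Matrix.add_mul, hwB, minus, neg_add])
      rw [qW_add h2, hn w hw hwB, hn _ m (minus u), zero_add, zero_add] at e2
      rw [bW_add_right, bW_smul_right] at e1
      rw [bW_sub_right, bW_smul_right] at e2
      exact (mul_eq_zero.1 (two' (by linear_combination e1 + e2))).resolve_left hc
    obtain ⟨d, hd⟩ := scalar_of_comm (M := B) fun u hu => by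
      have := z _ (sub_mem ((Wsp F).smul_mem c hu) (hBW u hu)) (minus u)
      have e := congrArg (B * ·) (sub_eq_zero.1 this)
      simp only [Matrix.mul_smul, Matrix.mul_assoc, BB] at e
      exact smul_right_injective _ hc e
    have : B = 0 := two (by rw [← hB, hd, adj_smul, adj_one])
    rw [this, Matrix.zero_mul] at hBB
    exact hc (by simpa using (congrFun (congrFun hBB (.inl 0)) (.inl 0)).symm)
  have hvB' : v * B = -(B * v) := by rw [hvB, neg_neg]
  have hw : B * v ∈ Wsp F := ⟨by rw [adj_mul, hB, hv.1, Matrix.mul_neg, hvB],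
    two' (by conv_lhs => rw [hvB, trace_neg, trace_mul_comm])⟩
  have hwB : B * (B * v) = -(B * v * B) := by rw [Matrix.mul_assoc, hvB', Matrix.mul_neg, neg_neg]
  have hb : bW v (B * v) = 0 := by
    have : B.trace = 0 := two' (by conv_lhs => rw [← trace_adj, hB, trace_neg])
    rw [bW, trace_mul_comm, Matrix.mul_assoc, mul_self h2 hv, Matrix.mul_smul, Matrix.mul_one,
      trace_smul, this, smul_zero, zero_div]
  have hqw : qW (B * v) = -c * qW v := qW_of_sq h2 (by
    rw [Matrix.mul_assoc, ← Matrix.mul_assoc v, hvB', Matrix.neg_mul, Matrix.mul_neg,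
      Matrix.mul_assoc, BB, mul_self h2 hv, smul_smul, neg_mul, neg_smul])
  have hp : ∀ u ∈ Wsp F, B * u = u * B ↔ bW v u = 0 ∧ bW (B * v) u = 0 := by
    refine fun u hu => ⟨fun e => ⟨perp u v e hvB, perp u _ e hwB⟩, fun ⟨e1, e2⟩ => ?_⟩
    have a1 := anti_of_perp h2 hv hu e1
    have a2 := anti_of_perp h2 hw hu e2
    have : B * v * v * u = u * (B * v * v) := by
      rw [← Matrix.mul_assoc u, a2, Matrix.neg_mul, Matrix.mul_assoc (B * v) u, a1, Matrix.mul_neg,
        neg_neg, Matrix.mul_assoc (B * v)]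
    rw [Matrix.mul_assoc B v v, mul_self h2 hv, Matrix.mul_smul, Matrix.mul_one, Matrix.smul_mul,
      Matrix.mul_smul] at this
    exact smul_right_injective _ hq this
  have hm : ∀ u ∈ Submodule.span F {v, B * v}, B * u = -(u * B) := by
    intro u hu
    obtain ⟨a, b, rfl⟩ := Submodule.mem_span_pair.1 hu
    rw [Matrix.mul_add, Matrix.add_mul, Matrix.mul_smul, Matrix.mul_smul, Matrix.smul_mul,
      Matrix.smul_mul, hwB, hvB', neg_add, smul_neg, smul_neg, neg_neg]
  refine ⟨v, hv, hq, hw, hb, hqw, hp, fun u hu => ⟨fun e => ?_, hm u⟩⟩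
  have hq' : qW (B * v) ≠ 0 := hqw ▸ mul_ne_zero (neg_ne_zero.2 hc) hq
  set u2 := (bW v u / (2 * qW v)) • v + (bW (B * v) u / (2 * qW (B * v))) • (B * v) with hu2
  have m2 : u2 ∈ Submodule.span F {v, B * v} := Submodule.mem_span_pair.2 ⟨_, _, rfl⟩
  have e3 := (hp (u - u2) (sub_mem hu (add_mem ((Wsp F).smul_mem _ hv)
    ((Wsp F).smul_mem _ hw)))).2 ⟨by
      rw [hu2, bW_sub_right, bW_add_right, bW_smul_right, bW_smul_right, hb, bW_self h2]
      field_simp; ring, by
      rw [hu2, bW_sub_right, bW_add_right, bW_smul_right, bW_smul_right, bW_comm _ v, hb,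
        bW_self h2]
      field_simp; ring⟩
  have e4 : B * (u - u2) = 0 := two (by
    conv_rhs => rw [e3]
    rw [Matrix.mul_sub, Matrix.sub_mul, e, hm _ m2]; abel)
  have := BB (u - u2)
  rw [e4, Matrix.mul_zero] at this
  rw [sub_eq_zero.1 ((smul_eq_zero.1 this.symm).resolve_left hc)]
  exact m2

end Cfsg.Agent.DIM4
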