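import Cfsg.Agent.DIM4.Colour
import Cfsg.Agent.DIM4.ThreeA

/-! A tame root system with a maximal frame of three roots is not invariant under the quarter
turn of the perpendicular plane. -/

set_option autoImplicit false

namespace Cfsg.Agent.DIM4

open Matrix

variable {F : Type*} [Field F] {D : Set (M4 F)}

namespace Th

/-- The values of `b²` for two roots that are not proportional. -/
def Val (β : F) : Prop := β = 0 ∨ β = 1 ∨ (Tau β ∧ (5 : F) ≠ 0)

theorem val (h : Tame D) (hn : NoSq2 D) {a b : M4 F} (ha : a ∈ D) (hb : b ∈ D) (h1 : a ≠ b)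
    (h1' : a ≠ -b) : Val (bW a b ^ 2) := by
  have h2 := h.two
  have four : bW a b ^ 2 = 4 → Val (bW a b ^ 2) := fun e => by
    by_cases h3 : (3 : F) = 0
    · exact Or.inr (Or.inl (by linear_combination e + h3))
    · exact ((h.eq_of_four h3 ha hb e).elim h1 h1').elim
  rcases h.vals a ha b hb with e | e | e | e | e
  · exact Or.inl (by rw [e]; ring)
  · exact Or.inr (Or.inl e)
  · exact (hn a ha b hb e).elim
  · exact four e
  · by_cases h5 : (5 : F) = 0
    · refine four ?_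
      have : (bW a b ^ 2 - 4) ^ 2 = 0 := by
        rw [Tau] at e; linear_combination e + (3 - bW a b ^ 2) * h5
      linear_combination pow_eq_zero_iff two_ne_zero |>.1 this
    · exact Or.inr (Or.inr ⟨e, h5⟩)

theorem val_quarter {β : F} (h : Val β) (e : 4 * β = 1) : (3 : F) = 0 := by
  rcases h with rfl | rfl | ⟨h, h5⟩
  · simp at e
  · linear_combination e
  · rw [Tau] at h
    exact (h5 (by linear_combination 16 * h - (4 * β - 11) * e)).elim

theorem val_neg (h2 : (2 : F) ≠ 0) {β : F} (h : Val β) (e : β = -1) : False := by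
  rcases h with rfl | rfl | ⟨h, h5⟩
  · simp at e
  · exact h2 (by linear_combination e)
  · rw [Tau, e] at h
    exact h5 (by linear_combination h)

theorem classify {β : Fin 3 → F} (hv : ∀ i, Val (β i)) (hne : ∃ i, β i ≠ 0)
    (hp : ∀ i j, i ≠ j → Tau (β i) → Tau (β j) → β i + β j = 3 ∧ β i ≠ β j) {σ : F}
    (hσ : σ = β 0 + β 1 + β 2) : σ = 1 ∨ σ = 2 ∨ σ = 3 ∨ σ = 4 ∨
      ∃ i, Tau (β i) ∧ (5 : F) ≠ 0 ∧
        (σ = β i ∨ σ = β i + 2 ∨ (σ = β i + 1 ∧ ∃ j, j ≠ i ∧ β j = 1)) := by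
  have p01 := hp 0 1 (by decide)
  have p02 := hp 0 2 (by decide)
  have p12 := hp 1 2 (by decide)
  have hz : β 0 = 0 → β 1 = 0 → β 2 = 0 → False := fun a b c => by
    obtain ⟨i, hi⟩ := hne
    fin_cases i
    exacts [hi a, hi b, hi c]
  rcases hv 0 with a | a | ⟨a, a5⟩ <;> rcases hv 1 with b | b | ⟨b, b5⟩ <;>
    rcases hv 2 with c | c | ⟨c, c5⟩
  · exact (hz a b c).elim
  · exact .inl (by rw [hσ, a, b, c]; ring)
  · exact .inr (.inr (.inr (.inr ⟨2, c, c5, .inl (by rw [hσ, a, b]; ring)⟩)))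
  · exact .inl (by rw [hσ, a, b, c]; ring)
  · exact .inr (.inl (by rw [hσ, a, b, c]; ring))
  · exact .inr (.inr (.inr (.inr ⟨2, c, c5, .inr (.inr ⟨by rw [hσ, a, b]; ring, 1, by decide, b⟩)⟩)))
  · exact .inr (.inr (.inr (.inr ⟨1, b, b5, .inl (by rw [hσ, a, c]; ring)⟩)))
  · exact .inr (.inr (.inr (.inr ⟨1, b, b5, .inr (.inr ⟨by rw [hσ, a, c]; ring, 2, by decide, c⟩)⟩)))
  · exact .inr (.inr (.inl (by linear_combination hσ + a + (p12 b c).1)))
  · exact .inl (by rw [hσ, a, b, c]; ring)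
  · exact .inr (.inl (by rw [hσ, a, b, c]; ring))
  · exact .inr (.inr (.inr (.inr ⟨2, c, c5, .inr (.inr ⟨by rw [hσ, a, b]; ring, 0, by decide, a⟩)⟩)))
  · exact .inr (.inl (by rw [hσ, a, b, c]; ring))
  · exact .inr (.inr (.inl (by rw [hσ, a, b, c]; ring)))
  · exact .inr (.inr (.inr (.inr ⟨2, c, c5, .inr (.inl (by rw [hσ, a, b]; ring))⟩)))
  · exact .inr (.inr (.inr (.inr ⟨1, b, b5, .inr (.inr ⟨by rw [hσ, a, c]; ring, 0, by decide, a⟩)⟩)))
  · exact .inr (.inr (.inr (.inr ⟨1, b, b5, .inr (.inl (by rw [hσ, a, c]; ring))⟩)))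
  · exact .inr (.inr (.inr (.inl (by linear_combination hσ + a + (p12 b c).1))))
  · exact .inr (.inr (.inr (.inr ⟨0, a, a5, .inl (by rw [hσ, b, c]; ring)⟩)))
  · exact .inr (.inr (.inr (.inr ⟨0, a, a5, .inr (.inr ⟨by rw [hσ, b, c]; ring, 2, by decide, c⟩)⟩)))
  · exact .inr (.inr (.inl (by linear_combination hσ + b + (p02 a c).1)))
  · exact .inr (.inr (.inr (.inr ⟨0, a, a5, .inr (.inr ⟨by rw [hσ, b, c]; ring, 1, by decide, b⟩)⟩)))
  · exact .inr (.inr (.inr (.inr ⟨0, a, a5, .inr (.inl (by rw [hσ, b, c]; ring))⟩)))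
  · exact .inr (.inr (.inr (.inl (by linear_combination hσ + b + (p02 a c).1))))
  · exact .inr (.inr (.inl (by linear_combination hσ + c + (p01 a b).1)))
  · exact .inr (.inr (.inr (.inl (by linear_combination hσ + c + (p01 a b).1))))
  · exact ((p12 b c).2 (by linear_combination (p01 a b).1 - (p02 a c).1)).elim

/-- The arithmetic part of the argument. -/
theorem arith (h : Tame D) (hn : NoSq2 D) {x : Fin 3 → M4 F} (hx : Orth D x)
    (hmax : ∀ y ∈ D, ∃ i, bW y (x i) ≠ 0) {y y₁ y₂ : M4 F} (hy : y ∈ D) (hy₁ : y₁ ∈ D)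
    (hy₂ : y₂ ∈ D) (e₁ : ∀ i, bW y₁ (x i) = bW y (x i)) (e₂ : ∀ i, bW y₂ (x i) = bW y (x i))
    {σ : F} (hσ : σ = bW y (x 0) ^ 2 + bW y (x 1) ^ 2 + bW y (x 2) ^ 2)
    (f₁ : 2 * bW y y₁ = σ) (f₂ : bW y y₂ = σ - 2) (n₁ : y ≠ y₁) (n₂ : y ≠ y₂)
    (n : ∀ i, y ≠ x i ∧ y ≠ -x i) (h3 : (3 : F) = 0 → σ ≠ 1) : False := by
  have h2 := h.two
  have h4 := four_ne h2
  have neg : ∀ z : M4 F, (∀ i, bW z (x i) = bW y (x i)) → y ≠ -z := fun z hz e => by
    obtain ⟨i, hi⟩ := hmax y hy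
    have := hz i
    rw [← neg_neg z, ← e, bW_neg_left] at this
    exact mul_ne_zero h2 hi (by linear_combination -this)
  have v₁ := val h hn hy hy₁ n₁ (neg _ e₁)
  have v₂ := val h hn hy hy₂ n₂ (neg _ e₂)
  have z₁ := h.refl _ hy₁ _ hy
  have z₂ := h.refl _ hy₂ _ hy
  have c₁ : ∀ i, 2 * bW (y - bW y y₁ • y₁) (x i) = (2 - σ) * bW y (x i) := fun i => by
    rw [bW_sub_left, bW_smul_left, e₁, ← f₁]; ring
  have c₂ : ∀ i, bW (y - bW y y₂ • y₂) (x i) = (3 - σ) * bW y (x i) := fun i => by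
    rw [bW_sub_left, bW_smul_left, e₂, f₂]; ring
  have g₁ : 4 * bW y y₁ ^ 2 = σ ^ 2 := by rw [← f₁]; ring
  have d₁ : ∀ i, 4 * bW (y - bW y y₁ • y₁) (x i) ^ 2 = (2 - σ) ^ 2 * bW y (x i) ^ 2 := fun i => by
    rw [← mul_pow, ← c₁]; ring
  generalize y - bW y y₁ • y₁ = z at z₁ c₁ d₁
  have vz : ∀ i j, i ≠ j → bW z (x j) ≠ 0 → Val (bW z (x i) ^ 2) := fun i j hij hz =>
    val h hn z₁ (hx.1 i) (fun e => hz (by rw [e, hx.2 i j hij]))
      (fun e => hz (by rw [e, bW_neg_left, hx.2 i j hij, neg_zero]))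
  rcases classify (β := fun i => bW y (x i) ^ 2) (fun i => val h hn hy (hx.1 i) (n i).1 (n i).2)
    ((hmax y hy).imp fun i hi => pow_ne_zero 2 hi)
    (fun i j hij => h.tau_pair hn (hx.1 i) hy (hx.1 j) (hx.2 i j hij)) hσ with
    e | e | e | e | ⟨i, ht, h5, e⟩
  · exact h3 (val_quarter v₁ (by rw [g₁, e]; ring)) e
  · obtain ⟨i, hi⟩ := hmax _ z₁
    exact mul_ne_zero h2 hi (by rw [c₁, e]; ring)
  · obtain ⟨i, hi⟩ := hmax _ z₂
    exact hi (by rw [c₂, e]; ring)
  · have e4 : bW y y₁ ^ 2 = 4 := mul_left_cancel₀ h4 (by rw [g₁, e]; ring)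
    rcases v₁ with v | v | ⟨v, h5⟩
    · exact h4 (e4.symm.trans v)
    · exact h3 (by linear_combination v - e4) (by linear_combination e + v - e4)
    · rw [e4, Tau] at v; exact h5 (by linear_combination v)
  have di := d₁ i
  generalize hτ : bW y (x i) ^ 2 = τ at ht e di
  rw [Tau] at ht
  have τ0 : τ ≠ 0 := by rintro rfl; simp at ht
  rcases e with e | e | ⟨e, j, hj, ej⟩
  · by_cases k3 : (3 : F) = 0
    · exact val_neg h2 v₁ (by
        rw [e] at g₁; linear_combination g₁ + ht + (τ - bW y y₁ ^ 2) * k3)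
    · have q : 4 * bW z (x i) ^ 2 = 1 := by rw [di, e]; linear_combination (τ - 1) * ht
      rcases h.vals z z₁ _ (hx.1 i) with v | v | v | v | v
      · rw [v] at q; simp at q
      · exact k3 (by linear_combination q - 4 * v)
      · exact hn _ z₁ _ (hx.1 i) v
      · exact mul_ne_zero k3 h5 (by linear_combination q - 4 * v)
      · exact k3 (val_quarter (Or.inr (Or.inr ⟨v, h5⟩)) q)
  · rw [f₂, e, add_sub_cancel_right] at v₂
    rcases v₂ with v | v | ⟨v, -⟩
    · exact pow_ne_zero 2 τ0 v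
    · exact h5 (by linear_combination (3 * τ - 7) * v - (3 * τ + 2) * ht)
    · rw [Tau] at v
      exact mul_ne_zero h4 (pow_ne_zero 2 τ0) (by linear_combination v - (τ ^ 2 + 3 * τ + 1) * ht)
  · have qi : 4 * bW z (x i) ^ 2 = τ ^ 2 := by rw [di, e]; linear_combination τ * ht
    have qj : 4 * bW z (x j) ^ 2 = τ := by rw [d₁, e, ej]; linear_combination ht
    have zi : bW z (x i) ≠ 0 := fun v => pow_ne_zero 2 τ0 (by rw [← qi, v]; ring)
    have zj : bW z (x j) ≠ 0 := fun v => τ0 (by rw [← qj, v]; ring)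
    by_cases k3 : (3 : F) = 0
    · exact val_neg h2 (vz i j hj.symm zj) (by
        linear_combination qi + ht + (τ - bW z (x i) ^ 2) * k3)
    · rcases vz j i hj zi with v | v | ⟨v, -⟩
      · exact pow_ne_zero 2 zj v
      · rw [v] at qj; rw [← qj] at ht; exact h5 (by linear_combination ht)
      · rw [Tau] at v
        have t : 3 * τ = 5 := mul_left_cancel₀ k3 (by
          linear_combination ht - 16 * v + (4 * bW z (x j) ^ 2 + τ - 12) * qj)
        have t2 : τ = -2 := by linear_combination (τ - 1) * t - 3 * ht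
        exact k3 (val_quarter v₁ (by rw [g₁, e, t2]; ring))

end Th

open Th in
theorem Tame.three_false (h : Tame D) (hn : NoSq2 D) (hc : Conn D) {x : Fin 3 → M4 F}
    (hx : Orth D x) (hmax : ∀ y ∈ D, ∃ i, bW y (x i) ≠ 0)
    (hD : ∀ y ∈ D, (2 : F)⁻¹ • ((1 + x 0 * x 1 * x 2) * y * (1 - x 0 * x 1 * x 2)) ∈ D) :
    False := by
  have h2 := h.two
  have fr := fr_of_orth h.toRS hx
  obtain ⟨y, hy, hyU⟩ : ∃ y ∈ D, y ∉ Submodule.span F (Set.range x) := by
    by_contra hall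
    push Not at hall
    have hle := hc _ (fun z hz v _ => Submodule.smul_mem _ _ (hall z hz)) ⟨_, hx.1 0, hall _ (hx.1 0)⟩
    have h1 := Submodule.finrank_mono hle
    have h3 := finrank_range_le_card (R := F) x
    rw [finrank_Wsp h2] at h1
    simp only [Set.finrank, Fintype.card_fin] at h3
    omega
  obtain ⟨u, hU, v, hv, rfl, hu, hou, hp, hui, hperp, hσ⟩ := fr.decomp (h.mem y hy)
  have v0 : v ≠ 0 := by rintro rfl; exact hyU (by rwa [add_zero])
  obtain ⟨hw, hqw, hpw, hvw⟩ := fr.om_mul hv hp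
  have ww : om x * (om x * v) = -v := by
    rw [← Matrix.mul_assoc, fr.om_sq, Matrix.neg_mul, Matrix.one_mul]
  have hy₁ : u + om x * v ∈ D := fr.conj_half hou (fr.om_anti hv hp) ▸ hD _ hy
  have hy₂ : u + -v ∈ D := by
    rw [← ww, ← fr.conj_half hou (fr.om_anti hw hpw)]; exact hD _ hy₁
  have vne : v ≠ -v := fun e => v0 (smul_right_injective _ h2 (by
    change (2 : F) • v = (2 : F) • (0 : M4 F)
    rw [two_smul, smul_zero, add_eq_zero_iff_eq_neg]; exact e))
  have huv := hperp v hp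
  have hb : bW u u + bW v v = 2 := by
    have := h.toRS.bW_self hy
    rw [bW_add_left, bW_add_right, bW_add_right, bW_comm v u, huv] at this
    linear_combination this
  have f₂ : bW (u + v) (u + -v) = 2 * bW u u - 2 := by
    rw [bW_add_left, bW_add_right, bW_add_right, bW_neg_right, bW_neg_right, bW_comm v u, huv]
    linear_combination -hb
  refine arith h hn hx hmax hy hy₁ hy₂ (fun i => ?_) (fun i => ?_) hσ ?_ f₂ (fun e => ?_)
    (fun e => vne (add_left_cancel e)) (fun i => ⟨fun e => ?_, fun e => ?_⟩) fun h3 e => ?_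
  · rw [bW_add_left, hpw, hui, add_zero]
  · rw [bW_add_left, bW_neg_left, hp, hui, neg_zero, add_zero]
  · rw [bW_add_left, bW_add_right, bW_add_right, hperp _ hpw, bW_comm v u, huv, hvw]; ring
  · have e' := add_left_cancel e
    exact vne (by rw [← ww, ← e', ← e'])
  · exact hyU (e ▸ Submodule.subset_span ⟨i, rfl⟩)
  · exact hyU (e ▸ neg_mem (Submodule.subset_span ⟨i, rfl⟩))
  · have q0 : qW v = 0 := by
      rw [bW_self h2 v] at hb
      exact (mul_eq_zero.1 (show 4 * qW v = 0 by linear_combination 2 * hb - e + h3)).resolve_left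
        (four_ne h2)
    have vv : v * v = 0 := by rw [mul_self h2 hv, q0, zero_smul]
    obtain ⟨c, hc'⟩ := parallel h2 hv hw v0 (by
      rw [← Matrix.mul_assoc, fr.om_anti hv hp, Matrix.neg_mul, Matrix.mul_assoc, vv,
        Matrix.mul_zero, neg_zero])
    have hc2 : c * c = -1 := by
      rw [hc', Matrix.mul_smul, hc', smul_smul, ← neg_one_smul F v] at ww
      exact smul_left_injective F v0 ww
    have huD : u ∈ D := by
      have := h.neg _ (h.refl _ hy₂ _ hy)
      rw [f₂, e] at this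
      convert this using 1
      linear_combination (norm := module) h3 • u
    rcases h.line u v c huD hy (hc' ▸ hy₁) v0 vv with rfl | rfl | rfl
    · simp at hc2
    · exact h2 (by linear_combination hc2)
    · exact h2 (by linear_combination hc2)

end Cfsg.Agent.DIM4
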