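import Cfsg.Agent.DIM4.Defs2
import Cfsg.Agent.H27.FinField

/-! Project DIM4: the even Clifford algebra of a non-degenerate 3-space of `W` is `M₂(F)`. -/

set_option autoImplicit false

namespace Cfsg.Agent.DIM4.Triple

open Matrix

variable {F : Type*} [Field F]

/-- A hyperbolic pair and a non-singular vector perpendicular to it. -/
structure Hyp (s t y : M4 F) (δ : F) : Prop where
  two : (2 : F) ≠ 0
  sW : s ∈ Wsp F
  tW : t ∈ Wsp F
  yW : y ∈ Wsp F
  qs : qW s = 0
  qt : qW t = 0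
  qy : qW y = δ
  st : bW s t = 1
  sy : bW s y = 0
  ty : bW t y = 0
  ne : δ ≠ 0

/-- Coordinates. -/
def vec (s t y : M4 F) (a : F × F × F) : M4 F := a.1 • s + a.2.1 • t + a.2.2 • y

/-- The algebra homomorphism `M₂(F) → M₄(F)`. -/
def phi (s t y : M4 F) (δ : F) (A : Matrix (Fin 2) (Fin 2) F) : M4 F :=
  A 0 0 • (s * t) + A 0 1 • (s * y) + (A 1 0 / δ) • (y * t) + A 1 1 • (t * s)

/-- The traceless matrix attached to a vector. -/
def mm (δ : F) (a : F × F × F) : Matrix (Fin 2) (Fin 2) F :=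
  !![a.2.2 * δ, -a.1; -(δ * a.2.1), -(a.2.2 * δ)]

/-- The volume element. -/
def om (s t y : M4 F) : M4 F := (s * t - t * s) * y

theorem phi_add_smul (s t y : M4 F) (δ c d : F) (A B : Matrix (Fin 2) (Fin 2) F) :
    phi s t y δ (c • A + d • B) = c • phi s t y δ A + d • phi s t y δ B := by
  simp only [phi, Matrix.add_apply, Matrix.smul_apply, smul_eq_mul]
  match_scalars <;> ring

theorem phi_smul (s t y : M4 F) (δ c : F) (A : Matrix (Fin 2) (Fin 2) F) :
    phi s t y δ (c • A) = c • phi s t y δ A := by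
  simpa using phi_add_smul s t y δ c 0 A A

theorem exists_mm {δ : F} (h : δ ≠ 0) {A : Matrix (Fin 2) (Fin 2) F} (hA : A.trace = 0) :
    ∃ a, mm δ a = A := by
  refine ⟨(-A 0 1, -A 1 0 / δ, A 0 0 / δ), ?_⟩
  rw [trace_fin_two] at hA
  ext i j
  fin_cases i <;> fin_cases j <;> simp [mm] <;> field_simp
  linear_combination -hA

namespace Hyp

variable {s t y : M4 F} {δ : F} (h : Hyp s t y δ)
include h

theorem r1 : s * s = 0 := by rw [mul_self h.two h.sW, h.qs, zero_smul]
theorem r2 : t * t = 0 := by rw [mul_self h.two h.tW, h.qt, zero_smul]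
theorem r3 : t * s = 1 - s * t := by rw [swap h.two h.sW h.tW, h.st, one_smul]
theorem r4 : y * s = -(s * y) := anti_of_perp h.two h.sW h.yW h.sy
theorem r5 : y * t = -(t * y) := anti_of_perp h.two h.tW h.yW h.ty
theorem r6 : y * y = δ • (1 : M4 F) := by rw [mul_self h.two h.yW, h.qy]
theorem l1 (X : M4 F) : s * (s * X) = 0 := by rw [← mul_assoc, h.r1, zero_mul]
theorem l2 (X : M4 F) : t * (t * X) = 0 := by rw [← mul_assoc, h.r2, zero_mul]
theorem l3 (X : M4 F) : t * (s * X) = X - s * (t * X) := by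
  rw [← mul_assoc, h.r3, sub_mul, one_mul, mul_assoc]
theorem l4 (X : M4 F) : y * (s * X) = -(s * (y * X)) := by
  rw [← mul_assoc, h.r4, neg_mul, mul_assoc]
theorem l5 (X : M4 F) : y * (t * X) = -(t * (y * X)) := by
  rw [← mul_assoc, h.r5, neg_mul, mul_assoc]
theorem l6 (X : M4 F) : y * (y * X) = δ • X := by rw [← mul_assoc, h.r6, smul_mul_assoc, one_mul]

theorem phi_one : phi s t y δ 1 = 1 := by simp [phi, h.r3]

theorem alg (A B : Matrix (Fin 2) (Fin 2) F) (a : F × F × F) :
    phi s t y δ (A * B) = phi s t y δ A * phi s t y δ B ∧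
    phi s t y δ (mm δ a) = om s t y * vec s t y a ∧
    om s t y * vec s t y a = vec s t y a * om s t y ∧ om s t y * om s t y = δ • (1 : M4 F) := by
  have := h.ne
  simp only [phi, mm, vec, om, mul_apply, Fin.sum_univ_two, of_apply, cons_val', cons_val_zero,
    cons_val_one, cons_val_fin_one, mul_add, add_mul, mul_sub, sub_mul, smul_mul_assoc,
    mul_smul_comm, mul_assoc, mul_neg, neg_mul, mul_one, one_mul, mul_zero, zero_mul, h.r1, h.r2,
    h.r3, h.r4, h.r5, h.r6, h.l1, h.l2, h.l3, h.l4, h.l5, h.l6]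
  refine ⟨?_, ?_, ?_, ?_⟩ <;> match_scalars <;> field_simp <;> ring

theorem phi_mul (A B : Matrix (Fin 2) (Fin 2) F) :
    phi s t y δ (A * B) = phi s t y δ A * phi s t y δ B := (h.alg A B 0).1

theorem phi_mm (a : F × F × F) : phi s t y δ (mm δ a) = om s t y * vec s t y a := (h.alg 1 1 a).2.1

theorem om_comm (a : F × F × F) : Commute (om s t y) (vec s t y a) := (h.alg 1 1 a).2.2.1

theorem om_sq : om s t y * om s t y = δ • (1 : M4 F) := (h.alg 1 1 0).2.2.2

theorem phi_mm_mm (a b : F × F × F) :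
    phi s t y δ (mm δ a * mm δ b) = δ • (vec s t y a * vec s t y b) := by
  rw [h.phi_mul, h.phi_mm, h.phi_mm, mul_assoc, ← mul_assoc (vec s t y a), ← (h.om_comm a).eq,
    mul_assoc, ← mul_assoc, h.om_sq, smul_mul_assoc, one_mul]

theorem vec_mem (a : F × F × F) : vec s t y a ∈ Wsp F :=
  add_mem (add_mem (Submodule.smul_mem _ _ h.sW) (Submodule.smul_mem _ _ h.tW))
    (Submodule.smul_mem _ _ h.yW)

theorem bW_vec (a b : F × F × F) : bW (vec s t y a) (vec s t y b) =
    a.1 * b.2.1 + a.2.1 * b.1 + 2 * δ * a.2.2 * b.2.2 := by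
  simp only [vec, bW_add_left, bW_add_right, bW_smul_left, bW_smul_right, bW_self h.two, h.qs,
    h.qt, h.qy, h.st, h.sy, h.ty, bW_comm t s, bW_comm y s, bW_comm y t]
  ring

theorem trace_mm (a b : F × F × F) :
    (mm δ a * mm δ b).trace = δ * bW (vec s t y a) (vec s t y b) := by
  simp [h.bW_vec, mm, trace_fin_two]
  ring

theorem det_mm (a : F × F × F) : (mm δ a).det = -δ * qW (vec s t y a) := by
  have := h.bW_vec a a
  rw [bW_self h.two] at this
  refine mul_left_cancel₀ h.two ?_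
  simp only [mm, det_fin_two_of]
  linear_combination δ * this

theorem trace_three {a b c : F × F × F} (ha : qW (vec s t y a) = 1) (hb : qW (vec s t y b) = 1)
    (hc : qW (vec s t y c) = 1) : (mm δ a * mm δ b * mm δ c).trace ^ 2 =
      -δ ^ 3 * gram3 (vec s t y a) (vec s t y b) (vec s t y c) := by
  have h1 := bW_self h.two (vec s t y a)
  have h2 := bW_self h.two (vec s t y b)
  have h3 := bW_self h.two (vec s t y c)
  have : 2 * (mm δ a * mm δ b * mm δ c).trace ^ 2 = -δ ^ 3 * (bW (vec s t y a) (vec s t y a) *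
      bW (vec s t y b) (vec s t y b) * bW (vec s t y c) (vec s t y c) +
      2 * bW (vec s t y a) (vec s t y b) * bW (vec s t y b) (vec s t y c) *
      bW (vec s t y a) (vec s t y c) -
      bW (vec s t y c) (vec s t y c) * bW (vec s t y a) (vec s t y b) ^ 2 -
      bW (vec s t y a) (vec s t y a) * bW (vec s t y b) (vec s t y c) ^ 2 -
      bW (vec s t y b) (vec s t y b) * bW (vec s t y a) (vec s t y c) ^ 2) := by
    simp [h.bW_vec, mm, trace_fin_two]
    ring
  rw [h1, h2, h3, ha, hb, hc] at this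
  refine mul_left_cancel₀ h.two ?_
  rw [this, gram3]
  ring

end Hyp

theorem exists_binary [Finite F] (h2 : (2 : F) ≠ 0) {A B C : F} (h : B ^ 2 - 4 * A * C ≠ 0) :
    ∃ a c : F, A * a ^ 2 + B * a * c + C * c ^ 2 = -1 := by
  by_cases hA : A = 0
  · have hB : B ≠ 0 := fun e => h (by simp [hA, e])
    exact ⟨(-1 - C) / B, 1, by rw [hA]; field_simp; ring⟩
  obtain ⟨X, c, e⟩ := H27.exists_mul_sq_add_mul_sq one_ne_zero (neg_ne_zero.2 h) (-4 * A)
  refine ⟨(X - B * c) / (2 * A), c, ?_⟩
  field_simp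
  linear_combination e

/-- Three roots with non-zero Gram determinant span a 3-space with a hyperbolic frame. -/
theorem exists_hyp [Finite F] (h2 : (2 : F) ≠ 0) {x y z : M4 F} (hx : x ∈ Wsp F) (hy : y ∈ Wsp F)
    (hz : z ∈ Wsp F) (qx : qW x = 1) (qy : qW y = 1) (qz : qW z = 1) (hg : gram3 x y z ≠ 0) :
    ∃ s t w δ, Hyp s t w δ ∧ ∀ u ∈ Submodule.span F {x, y, z}, ∃ a, vec s t w a = u := by
  have h4 := four_ne h2
  set y' := y - (bW x y / 2) • x with hy'
  set z' := z - (bW x z / 2) • x with hz'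
  have y'W : y' ∈ Wsp F := sub_mem hy (Submodule.smul_mem _ _ hx)
  have z'W : z' ∈ Wsp F := sub_mem hz (Submodule.smul_mem _ _ hx)
  have e1 : bW x y' = 0 := by
    rw [hy', bW_sub_right, bW_smul_right, bW_self h2, qx]; field_simp; ring
  have e2 : bW x z' = 0 := by
    rw [hz', bW_sub_right, bW_smul_right, bW_self h2, qx]; field_simp; ring
  have e3 : bW y' z' ^ 2 - 4 * qW y' * qW z' ≠ 0 := by
    rw [show bW y' z' ^ 2 - 4 * qW y' * qW z' = bW y' z' ^ 2 - bW y' y' * bW z' z' by
      rw [bW_self h2, bW_self h2]; ring, ← neg_ne_zero]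
    convert hg using 1
    simp only [hy', hz', bW_sub_left, bW_sub_right, bW_smul_left, bW_smul_right]
    simp only [bW_self h2, qx, qy, qz, bW_comm y x, bW_comm z x, gram3]
    field_simp
    ring
  obtain ⟨a, c, e⟩ := exists_binary h2 e3
  have e4 : y = y' + (bW x y / 2) • x := by simp [hy']
  have e5 : z = z' + (bW x z / 2) • x := by simp [hz']
  clear_value y' z'
  have q : ∀ v : M4 F, qW v = bW v v / 2 := fun v => by rw [bW_self h2]; field_simp
  have m := fun (k : F) {v : M4 F} (hv : v ∈ Wsp F) => Submodule.smul_mem _ k hv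
  refine ⟨(2 : F)⁻¹ • (x + (a • y' + c • z')), (2 : F)⁻¹ • (x - (a • y' + c • z')),
    (bW y' z' * a + 2 * qW z' * c) • y' - (2 * qW y' * a + bW y' z' * c) • z',
    bW y' z' ^ 2 - 4 * qW y' * qW z', ⟨h2, m _ (add_mem hx (add_mem (m _ y'W) (m _ z'W))),
      m _ (sub_mem hx (add_mem (m _ y'W) (m _ z'W))), sub_mem (m _ y'W) (m _ z'W),
      ?_, ?_, ?_, ?_, ?_, ?_, e3⟩, fun u hu => ?_⟩
  iterate 6
    try rw [q]
    simp only [bW_add_left, bW_add_right, bW_sub_left, bW_sub_right, bW_smul_left, bW_smul_right]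
    simp only [bW_self h2, qx, e1, e2, bW_comm y' x, bW_comm z' x, bW_comm z' y']
    field_simp
    first
      | linear_combination 2 * e
      | linear_combination -2 * e
      | linear_combination 2 * (4 * qW y' * qW z' - bW y' z' ^ 2) * e
      | ring1
  obtain ⟨k, _, ⟨l, _, ⟨n, rfl⟩, rfl⟩, rfl⟩ :
      ∃ k : F, ∃ v, (∃ l : F, ∃ v', (∃ n : F, n • z = v') ∧ v = l • y + v') ∧ u = k • x + v := by
    simpa only [Submodule.mem_span_insert, Submodule.mem_span_singleton] using hu
  generalize bW x y / 2 = α at e4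
  generalize bW x z / 2 = β at e5
  generalize bW y' z' = B at e
  generalize qW y' = A at e
  generalize qW z' = C at e
  refine ⟨(k + l * α + n * β - (l * (2 * A * a + B * c) + n * (B * a + 2 * C * c)) / 2,
    k + l * α + n * β + (l * (2 * A * a + B * c) + n * (B * a + 2 * C * c)) / 2,
    (n * a - l * c) / 2), ?_⟩
  rw [e4, e5, vec]
  match_scalars <;> field_simp
  · ring
  · linear_combination (-4 * l) * e
  · linear_combination (-4 * n) * e

end Cfsg.Agent.DIM4.Triple
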