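import Cfsg.Agent.DIM4.Defs2

/-! Traces of products of vectors of `W` (Wick expansion). -/

set_option autoImplicit false

namespace Cfsg.Agent.DIM4

open Matrix

variable {F : Type*} [Field F]

theorem inv_two_mem (K : Subfield F) : (2 : F)⁻¹ ∈ K := K.inv_mem (by exact_mod_cast natCast_mem K 2)

theorem trace_move (h2 : (2 : F) ≠ 0) {K : Subfield F} {β : F} (hβ : β ≠ 0) {L : Set (M4 F)}
    (hW : ∀ v ∈ L, v ∈ Wsp F) (hb : ∀ v ∈ L, ∀ w ∈ L, bW v w / β ∈ K) (k : ℕ)
    (ih : ∀ l : List (M4 F), (∀ v ∈ l, v ∈ L) → l.length = 2 * k → l.prod.trace / β ^ k ∈ K)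
    {v : M4 F} (hv : v ∈ L) (m : List (M4 F)) : ∀ a : List (M4 F), (∀ w ∈ a, w ∈ L) →
      (∀ w ∈ m, w ∈ L) → a.length + m.length = 2 * k + 1 →
      ((a.prod * v * m.prod).trace - (-1) ^ m.length * (a.prod * m.prod * v).trace) / β ^ (k + 1)
        ∈ K := by
  induction m with
  | nil => intro a _ _ _; simp
  | cons w m ihm =>
    intro a ha hm hl
    have hw := hm w (by simp)
    have hm' : ∀ u ∈ m, u ∈ L := fun u hu => hm u (by simp [hu])
    have e1 := ihm (a ++ [w]) (by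
      intro u hu
      rcases List.mem_append.1 hu with h | h
      · exact ha u h
      · rw [List.mem_singleton.1 h]; exact hw) hm' (by simp at hl ⊢; omega)
    have e2 := ih (a ++ m) (by
      intro u hu
      rcases List.mem_append.1 hu with h | h
      · exact ha u h
      · exact hm' u h) (by simp at hl ⊢; omega)
    have e3 : a.prod * v * (w * m.prod) =
        bW w v • (a.prod * m.prod) - a.prod * w * v * m.prod := by
      rw [Matrix.mul_assoc, ← Matrix.mul_assoc v, swap h2 (hW w hw) (hW v hv)]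
      simp only [Matrix.sub_mul, Matrix.mul_sub, Matrix.smul_mul, Matrix.mul_smul, Matrix.one_mul,
        Matrix.mul_assoc]
    simp only [List.prod_append, List.prod_cons, List.prod_nil, mul_one] at e1 e2
    rw [List.prod_cons, e3, trace_sub, trace_smul, smul_eq_mul, List.length_cons, pow_succ (-1 : F),
      ← Matrix.mul_assoc]
    convert K.sub_mem (K.mul_mem (hb w hw v hv) e2) e1 using 1
    field_simp
    ring

theorem trace_list (h2 : (2 : F) ≠ 0) {K : Subfield F} {β : F} (hβ : β ≠ 0) {L : Set (M4 F)}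
    (hW : ∀ v ∈ L, v ∈ Wsp F) (hb : ∀ v ∈ L, ∀ w ∈ L, bW v w / β ∈ K) (k : ℕ)
    (l : List (M4 F)) (hl : ∀ v ∈ l, v ∈ L) (hk : l.length = 2 * k) :
    l.prod.trace / β ^ k ∈ K := by
  induction k generalizing l with
  | zero =>
    obtain rfl : l = [] := List.length_eq_zero_iff.1 (by simpa using hk)
    rw [List.prod_nil, trace_one4, pow_zero, div_one]
    exact_mod_cast natCast_mem K 4
  | succ k ih =>
    cases l with
    | nil => simp at hk
    | cons v m =>
      have hm : m.length = 2 * k + 1 := by simp at hk; omega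
      have := trace_move h2 hβ hW hb k ih (hl v (by simp)) m [] (by simp)
        (fun w hw => hl w (by simp [hw])) (by simpa using hm)
      rw [List.prod_nil, Matrix.one_mul, Matrix.one_mul, hm, trace_mul_comm m.prod] at this
      rw [List.prod_cons]
      convert K.mul_mem (inv_two_mem K) this using 1
      rw [pow_succ (-1 : F), pow_mul]
      field_simp
      ring

theorem prod_mul_reverse (h2 : (2 : F) ≠ 0) {K : Subfield F} {β : F} (hβ : β ≠ 0)
    {L : Set (M4 F)} (hW : ∀ v ∈ L, v ∈ Wsp F) (hb : ∀ v ∈ L, ∀ w ∈ L, bW v w / β ∈ K)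
    (l : List (M4 F)) (hl : ∀ v ∈ l, v ∈ L) :
    ∃ r : F, r / β ^ l.length ∈ K ∧ l.prod * l.reverse.prod = r • (1 : M4 F) := by
  induction l with
  | nil => exact ⟨1, by simp, by simp⟩
  | cons v m ih =>
    obtain ⟨r, hr, e⟩ := ih fun w hw => hl w (by simp [hw])
    have hv := hl v (by simp)
    refine ⟨r * qW v, ?_, ?_⟩
    · convert K.mul_mem hr (K.mul_mem (inv_two_mem K) (hb v hv v hv)) using 1
      rw [bW_self h2, List.length_cons, pow_succ]
      field_simp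
    · rw [List.reverse_cons, List.prod_append, List.prod_cons, List.prod_singleton, Matrix.mul_assoc,
        ← Matrix.mul_assoc m.prod, e, Matrix.smul_mul, Matrix.one_mul, Matrix.mul_smul,
        mul_self h2 (hW v hv), smul_smul]

theorem inv_eq_reverse (h2 : (2 : F) ≠ 0) {K : Subfield F} {β : F} (hβ : β ≠ 0)
    {L : Set (M4 F)} (hW : ∀ v ∈ L, v ∈ Wsp F) (hb : ∀ v ∈ L, ∀ w ∈ L, bW v w / β ∈ K)
    {l : List (M4 F)} (hl : ∀ v ∈ l, v ∈ L) {g : G4 F} {d : F} (e : (g : M4 F) = d • l.prod) :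
    ∃ r : F, r / β ^ l.length ∈ K ∧ d ≠ 0 ∧ r ≠ 0 ∧
      ((g⁻¹ : G4 F) : M4 F) = (d * r)⁻¹ • l.reverse.prod := by
  obtain ⟨r, hr, e'⟩ := prod_mul_reverse h2 hβ hW hb l hl
  have hd : d ≠ 0 := by
    rintro rfl
    exact g.ne_zero (by rw [e, zero_smul])
  have hr0 : r ≠ 0 := by
    rintro rfl
    have h := (isUnit_iff_isUnit_det _).1 g.isUnit
    have h1 := congrArg det e'
    have h3 : l.reverse.prod.det = l.prod.det := by
      rw [← coe_detMonoidHom, map_list_prod, map_list_prod, List.map_reverse, List.prod_reverse]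
    rw [zero_smul, det_zero, det_mul, h3, mul_self_eq_zero] at h1
    rw [e, det_smul, h1, mul_zero] at h
    exact not_isUnit_zero h
  refine ⟨r, hr, hd, hr0, Units.inv_eq_of_mul_eq_one_right ?_⟩
  rw [e, Matrix.smul_mul, Matrix.mul_smul, e', smul_smul, smul_smul, ← one_smul F (1 : M4 F),
    smul_smul]
  congr 1
  field_simp

theorem exists_evenSub (h2 : (2 : F) ≠ 0) {K : Subfield F} {β : F} (hβ : β ≠ 0)
    {L : Set (M4 F)} (hW : ∀ v ∈ L, v ∈ Wsp F) (hb : ∀ v ∈ L, ∀ w ∈ L, bW v w / β ∈ K) :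
    ∃ T : Subgroup (G4 F), (∀ g ∈ T, (g : M4 F).trace ∈ K) ∧ ∀ (g : G4 F) (k : ℕ) (d : F)
      (l : List (M4 F)), (∀ v ∈ l, v ∈ L) → l.length = 2 * k → d * β ^ k ∈ K →
      (g : M4 F) = d • l.prod → g ∈ T := by
  refine ⟨{ carrier := {g | ∃ (k : ℕ) (d : F) (l : List (M4 F)), (∀ v ∈ l, v ∈ L) ∧
              l.length = 2 * k ∧ d * β ^ k ∈ K ∧ (g : M4 F) = d • l.prod}
            one_mem' := ⟨0, 1, [], by simp, rfl, by simp, by simp⟩
            mul_mem' := ?_
            inv_mem' := ?_ }, ?_, fun g k d l h1 h2 h3 h4 => ⟨k, d, l, h1, h2, h3, h4⟩⟩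
  · rintro g h ⟨k, d, l, a1, a2, a3, a4⟩ ⟨k', d', l', b1, b2, b3, b4⟩
    refine ⟨k + k', d * d', l ++ l', fun v hv => (List.mem_append.1 hv).elim (a1 v) (b1 v),
      by rw [List.length_append, a2, b2]; ring, ?_, ?_⟩
    · convert K.mul_mem a3 b3 using 1
      ring
    · rw [Units.val_mul, a4, b4, List.prod_append, Matrix.smul_mul, Matrix.mul_smul, smul_smul]
  · rintro g ⟨k, d, l, a1, a2, a3, a4⟩
    obtain ⟨r, hr, hd, hr0, e⟩ := inv_eq_reverse h2 hβ hW hb a1 a4
    refine ⟨k, (d * r)⁻¹, l.reverse, fun v hv => a1 v (List.mem_reverse.1 hv),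
      by rw [List.length_reverse, a2], ?_, e⟩
    convert K.inv_mem (K.mul_mem a3 hr) using 1
    rw [a2, two_mul, pow_add]
    field_simp
  · rintro g ⟨k, d, l, a1, a2, a3, a4⟩
    convert K.mul_mem a3 (trace_list h2 hβ hW hb k l a1 a2) using 1
    rw [a4, trace_smul, smul_eq_mul]
    field_simp

theorem trace_comm (h2 : (2 : F) ≠ 0) {K : Subfield F} {β : F} (hβ : β ≠ 0) {L : Set (M4 F)}
    (hW : ∀ v ∈ L, v ∈ Wsp F) (hb : ∀ v ∈ L, ∀ w ∈ L, bW v w / β ∈ K) {D : Set (M4 F)}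
    (hD : ∀ x ∈ D, x * x = 1 ∧ ∃ c : F, c ≠ 0 ∧ c • x ∈ L) {g : G4 F}
    (hg : g ∈ ⁅grp D, grp D⁆) : (g : M4 F).trace ∈ K := by
  obtain ⟨T, hT, hmem⟩ := exists_evenSub h2 hβ hW hb
  have key : ∀ a ∈ grp D, ∃ (d : F) (l : List (M4 F)), (∀ v ∈ l, v ∈ L) ∧
      (a : M4 F) = d • l.prod := by
    intro a ha
    induction ha using Subgroup.closure_induction with
    | mem x hx =>
      obtain ⟨c, hc, hL⟩ := (hD _ hx).2
      exact ⟨c⁻¹, [c • (x : M4 F)], by simpa using hL, by simp [smul_smul, hc]⟩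
    | one => exact ⟨1, [], by simp, by simp⟩
    | mul x y _ _ hx hy =>
      obtain ⟨d, l, a1, a2⟩ := hx
      obtain ⟨d', l', b1, b2⟩ := hy
      exact ⟨d * d', l ++ l', fun v hv => (List.mem_append.1 hv).elim (a1 v) (b1 v), by
        rw [Units.val_mul, a2, b2, List.prod_append, Matrix.smul_mul, Matrix.mul_smul, smul_smul]⟩
    | inv x _ hx =>
      obtain ⟨d, l, a1, a2⟩ := hx
      obtain ⟨r, -, -, -, e⟩ := inv_eq_reverse h2 hβ hW hb a1 a2
      exact ⟨_, l.reverse, fun v hv => a1 v (List.mem_reverse.1 hv), e⟩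
  refine hT g (Subgroup.commutator_le.2 (fun a ha b hb' => ?_) hg)
  obtain ⟨d, l, a1, a2⟩ := key a ha
  obtain ⟨d', l', b1, b2⟩ := key b hb'
  obtain ⟨r, hr, hd, hr0, e⟩ := inv_eq_reverse h2 hβ hW hb a1 a2
  obtain ⟨r', hr', hd', hr0', e'⟩ := inv_eq_reverse h2 hβ hW hb b1 b2
  refine hmem _ (l.length + l'.length) (r * r')⁻¹ (l ++ l' ++ l.reverse ++ l'.reverse) ?_
    (by simp; ring) ?_ ?_
  · intro v hv
    simp only [List.mem_append, List.mem_reverse] at hv
    rcases hv with ((h | h) | h) | h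
    exacts [a1 v h, b1 v h, a1 v h, b1 v h]
  · convert K.inv_mem (K.mul_mem hr hr') using 1
    rw [pow_add]
    field_simp
  · rw [commutatorElement_def, Units.val_mul, Units.val_mul, Units.val_mul, e, e', a2, b2]
    simp only [List.prod_append, Matrix.smul_mul, Matrix.mul_smul, smul_smul]
    congr 1
    field_simp

theorem trace_pairs (h2 : (2 : F) ≠ 0) {K : Subfield F} {β : F} (hβ : β ≠ 0) {L : Set (M4 F)}
    (hW : ∀ v ∈ L, v ∈ Wsp F) (hb : ∀ v ∈ L, ∀ w ∈ L, bW v w / β ∈ K) {D : Set (M4 F)}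
    (hD : ∀ x ∈ D, adj x * x = 1 ∧ ∃ d : F, ∃ v ∈ L, ∃ w ∈ L, d * β ∈ K ∧ x = d • (v * w))
    {g : G4 F} (hg : g ∈ grp D) : (g : M4 F).trace ∈ K := by
  obtain ⟨T, hT, hmem⟩ := exists_evenSub h2 hβ hW hb
  refine hT g ((Subgroup.closure_le T).2 (fun x hx => ?_) hg)
  obtain ⟨d, v, hv, w, hw, h1, e⟩ := (hD _ hx).2
  exact hmem x 1 d [v, w] (by simp [hv, hw]) rfl (by simpa using h1) (by simpa using e)

end Cfsg.Agent.DIM4
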